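import Mathlib
import Cfsg.Agent.Lib.Helper48.StB

set_option autoImplicit false

/-! # Steinberg presentation of `SL_n`: piece BR3 (Bruhat decomposition `G = U N U`)
(helper62, for helper48's S2401) -/

namespace Cfsg.Agent.Lib.Helper48.St

open Cfsg.Agent.Lib.Helper48

variable {K : Type*} [Field K] {G : Type*} [Group G] {n : ℕ}
variable {X : Fin n → Fin n → K → G}

private theorem h62_stW_mem_stN (a b : Fin n) (hab : a ≠ b) (t : K) (ht : t ≠ 0) :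
    stW X a b t ∈ stN X :=
  Subgroup.subset_closure ⟨a, b, t, hab, ht, rfl⟩

private theorem h62_X_mem_stU (a b : Fin n) (hab : a < b) (t : K) : X a b t ∈ stU X :=
  Subgroup.subset_closure ⟨a, b, t, hab, rfl⟩

/-- core: `w_ab(t) x_ab(s) ν ∈ U N U`. -/
private theorem h62_core (hX : StRel X) (hW : WMon X) (hS : SL2Facts X)
    (a b : Fin n) (hab : a.val + 1 = b.val) (t : K) (ht : t ≠ 0) (s : K) (ν : G)
    (hν : ν ∈ stN X) :
    ∃ u₁ ∈ stU X, ∃ ν' ∈ stN X, ∃ u₂ ∈ stU X, stW X a b t * X a b s * ν = u₁ * ν' * u₂ := by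
  have hlt : a < b := by rw [Fin.lt_def]; omega
  have hne : a ≠ b := ne_of_lt hlt
  obtain ⟨σ, m, hmon⟩ := isMon_N hW ν⁻¹ (inv_mem hν)
  have hσne : σ a ≠ σ b := fun h => hne (σ.injective h)
  rcases lt_or_gt_of_ne hσne with h1 | h1
  · refine ⟨1, one_mem _, stW X a b t * ν, mul_mem (h62_stW_mem_stN a b hne t ht) hν,
      ν⁻¹ * X a b s * ν, ?_, by group⟩
    have := hmon.2 a b hne s
    rw [inv_inv] at this
    rw [this]
    exact h62_X_mem_stU _ _ h1 _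
  · by_cases hs : s = 0
    · subst hs
      rw [hX.zero a b hne, mul_one]
      exact ⟨1, one_mem _, stW X a b t * ν, mul_mem (h62_stW_mem_stN a b hne t ht) hν, 1,
        one_mem _, by group⟩
    · have hmon2 := isMon_mul hmon (hW a b hne 1 one_ne_zero)
      have hts : -(t * s⁻¹) ≠ 0 := neg_ne_zero.mpr (mul_ne_zero ht (inv_ne_zero hs))
      have hν'' : (stW X a b 1)⁻¹ * ν ∈ stN X :=
        mul_mem (inv_mem (h62_stW_mem_stN a b hne 1 one_ne_zero)) hν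
      refine ⟨X a b (-(t ^ 2 * s⁻¹)), h62_X_mem_stU _ _ hlt _,
        stW X a b (-(t * s⁻¹)) * ((stW X a b 1)⁻¹ * ν),
        mul_mem (h62_stW_mem_stN a b hne _ hts) hν'',
        (ν⁻¹ * stW X a b 1) * X a b (-s⁻¹) * (ν⁻¹ * stW X a b 1)⁻¹, ?_, ?_⟩
      · rw [hmon2.2 a b hne]
        simp only [Equiv.Perm.mul_apply, Equiv.swap_apply_left, Equiv.swap_apply_right]
        exact h62_X_mem_stU _ _ h1 _
      · have hwxw := hS.W_X_W a b hne t s ht hs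
        have e : stW X a b t * X a b s * ν =
            (stW X a b t * X a b s * stW X a b 1) * ((stW X a b 1)⁻¹ * ν) := by group
        rw [e, hwxw]
        group

/-- Bruhat decomposition `G = U N U`. -/
theorem bruhat (hX : StRel X) (hW : WMon X) (hS : SL2Facts X)
    (hdec : ∀ a b : Fin n, a.val + 1 = b.val → ∀ u ∈ stU X, ∃ u' ∈ stUa X a b, ∃ s : K,
      u = u' * X a b s)
    (hcj : ∀ a b : Fin n, a.val + 1 = b.val → ∀ t : K, t ≠ 0 → ∀ u' ∈ stUa X a b,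
      stW X a b t * u' * (stW X a b t)⁻¹ ∈ stU X)
    (hUW : Subgroup.closure ((stU X : Set G) ∪
      {g | ∃ (a b : Fin n) (t : K), a.val + 1 = b.val ∧ t ≠ 0 ∧ g = stW X a b t}) = ⊤) :
    ∀ g : G, ∃ u₁ ∈ stU X, ∃ ν ∈ stN X, ∃ u₂ ∈ stU X, g = u₁ * ν * u₂ := by
  have hw : ∀ (a b : Fin n) (t : K), a.val + 1 = b.val → t ≠ 0 → ∀ g : G,
      (∃ u₁ ∈ stU X, ∃ ν ∈ stN X, ∃ u₂ ∈ stU X, g = u₁ * ν * u₂) →
      ∃ u₁ ∈ stU X, ∃ ν ∈ stN X, ∃ u₂ ∈ stU X, stW X a b t * g = u₁ * ν * u₂ := by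
    intro a b t hab ht g ⟨u₁, hu₁, ν, hν, u₂, hu₂, hg⟩
    obtain ⟨u', hu', s, hs⟩ := hdec a b hab u₁ hu₁
    obtain ⟨v₁, hv₁, ν', hν', v₂, hv₂, hc⟩ := h62_core hX hW hS a b hab t ht s ν hν
    refine ⟨stW X a b t * u' * (stW X a b t)⁻¹ * v₁, mul_mem (hcj a b hab t ht u' hu') hv₁,
      ν', hν', v₂ * u₂, mul_mem hv₂ hu₂, ?_⟩
    have e : stW X a b t * g =
        (stW X a b t * u' * (stW X a b t)⁻¹) * (stW X a b t * X a b s * ν) * u₂ := by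
      rw [hg, hs]; group
    rw [e, hc]; group
  have hu : ∀ u ∈ stU X, ∀ g : G,
      (∃ u₁ ∈ stU X, ∃ ν ∈ stN X, ∃ u₂ ∈ stU X, g = u₁ * ν * u₂) →
      ∃ u₁ ∈ stU X, ∃ ν ∈ stN X, ∃ u₂ ∈ stU X, u * g = u₁ * ν * u₂ := by
    intro u hu g ⟨u₁, hu₁, ν, hν, u₂, hu₂, hg⟩
    exact ⟨u * u₁, mul_mem hu hu₁, ν, hν, u₂, hu₂, by rw [hg]; group⟩
  have key : ∀ x ∈ Subgroup.closure ((stU X : Set G) ∪
      {g | ∃ (a b : Fin n) (t : K), a.val + 1 = b.val ∧ t ≠ 0 ∧ g = stW X a b t}),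
      (∀ g : G, (∃ u₁ ∈ stU X, ∃ ν ∈ stN X, ∃ u₂ ∈ stU X, g = u₁ * ν * u₂) →
        ∃ u₁ ∈ stU X, ∃ ν ∈ stN X, ∃ u₂ ∈ stU X, x * g = u₁ * ν * u₂) ∧
      (∀ g : G, (∃ u₁ ∈ stU X, ∃ ν ∈ stN X, ∃ u₂ ∈ stU X, g = u₁ * ν * u₂) →
        ∃ u₁ ∈ stU X, ∃ ν ∈ stN X, ∃ u₂ ∈ stU X, x⁻¹ * g = u₁ * ν * u₂) := by
    intro x hx
    induction hx using Subgroup.closure_induction with
    | mem x hx =>
      rcases hx with hx | ⟨a, b, t, hab, ht, rfl⟩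
      · exact ⟨hu x hx, hu x⁻¹ (inv_mem hx)⟩
      · refine ⟨hw a b t hab ht, ?_⟩
        have hne : a ≠ b := by intro h; rw [h] at hab; omega
        rw [hX.stW_inv a b hne t]
        exact hw a b (-t) hab (neg_ne_zero.mpr ht)
    | one =>
      refine ⟨fun g hg => ?_, fun g hg => ?_⟩
      · rw [one_mul]; exact hg
      · rw [inv_one, one_mul]; exact hg
    | mul x y _ _ hx hy =>
      refine ⟨fun g hg => ?_, fun g hg => ?_⟩
      · rw [mul_assoc]; exact hx.1 _ (hy.1 g hg)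
      · rw [mul_inv_rev, mul_assoc]; exact hy.2 _ (hx.2 g hg)
    | inv x _ hx =>
      refine ⟨hx.2, ?_⟩
      rw [inv_inv]; exact hx.1
  intro g
  have h1 := (key g (by rw [hUW]; trivial)).1 1
    ⟨1, one_mem _, 1, one_mem _, 1, one_mem _, by group⟩
  rwa [mul_one] at h1

end Cfsg.Agent.Lib.Helper48.St
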