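import Mathlib
import Cfsg.Prelude.Def_GeometricClasses
import Cfsg.Prelude.Def_LieClassical
import Cfsg.Agent.Lib.Helper87.ASPSF

/-!
# Project O9 (helper44, S5835), piece FLDS (helper62)

An adjoint-closed field subalgebra of odd degree is self-adjoint for a symmetric form `f`
(twin of helper66's `SPPFLDp.FLDp`).
-/

set_option autoImplicit false
set_option linter.style.haveILetI false

namespace Cfsg.Agent.Lib.Helper44.O9

open Matrix Cfsg.Geo Cfsg.Agent.Lib.Helper71.Asch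
open scoped Kronecker

variable {n : ℕ} {F : Type*} [Field F] [Fintype F]

omit [Fintype F] in
theorem FLDS_zero_right (f : (Fin n → F) → (Fin n → F) → F) (hb : IsBilinearForm f)
    (u : Fin n → F) : f u 0 = 0 := by
  have h := hb.smul_right 0 u 0
  rw [zero_smul, zero_mul] at h
  exact h

omit [Fintype F] in
theorem FLDS_zero_left (f : (Fin n → F) → (Fin n → F) → F) (hb : IsBilinearForm f)
    (v : Fin n → F) : f 0 v = 0 := by
  have h := hb.smul_left 0 0 v
  rw [zero_smul, zero_mul] at h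
  exact h

omit [Fintype F] in
theorem FLDS_sub_right (f : (Fin n → F) → (Fin n → F) → F) (hb : IsBilinearForm f)
    (u x y : Fin n → F) : f u (x - y) = f u x - f u y := by
  have h1 := hb.add_right u x ((-1 : F) • y)
  rw [hb.smul_right] at h1
  have e : x + (-1 : F) • y = x - y := by rw [neg_one_smul, sub_eq_add_neg]
  rw [e] at h1
  rw [h1]; ring

omit [Fintype F] in
/-- Non-degeneracy: a vector is determined by the functional `u ↦ f u x`. -/
theorem FLDS_eq_of_forall (f : (Fin n → F) → (Fin n → F) → F) (hf : IsSymmetricForm f)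
    (x y : Fin n → F) (h : ∀ u, f u x = f u y) : x = y := by
  by_contra hne
  have hxy : x - y ≠ 0 := sub_ne_zero.2 hne
  obtain ⟨u, hu⟩ := (hf.nondegenerate (x - y) hxy).1
  apply hu
  rw [FLDS_sub_right f hf.bilinear, h u, sub_self]

omit [Fintype F] in
/-- Uniqueness of the adjoint. -/
theorem FLDS_adj_unique (f : (Fin n → F) → (Fin n → F) → F) (hf : IsSymmetricForm f)
    (A B : Matrix (Fin n) (Fin n) F) (h : ∀ u v, f u (A *ᵥ v) = f u (B *ᵥ v)) : A = B := by
  rw [Matrix.ext_iff_mulVec]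
  intro v
  exact FLDS_eq_of_forall f hf _ _ (fun u => h u v)

theorem FLDS (f : (Fin n → F) → (Fin n → F) → F) (hf : IsSymmetricForm f) (r : ℕ) (hr : Odd r)
    (K : Subalgebra F (Matrix (Fin n) (Fin n) F)) (hK : IsFieldSubalgebra r K)
    (hadj : IsAdjointClosedFor f K) : IsSelfAdjointFor f K := by
  classical
  have hb := hf.bilinear
  have hrpos : 0 < Module.finrank F K := by
    rw [hK.finrank_eq]; exact hr.pos
  have hnt : Nontrivial ↥K := Module.nontrivial_of_finrank_pos (R := F) hrpos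
  have h01 : (0 : ↥K) ≠ 1 := zero_ne_one
  letI iF : Field ↥K := Cfsg.Agent.Lib.Helper87.ASPSF.fieldK K hK.comm hK.inv h01
  -- the adjoint map
  have hex : ∀ k : ↥K, ∃ k' : ↥K, ∀ u v : Fin n → F, f (k.1 *ᵥ u) v = f u (k'.1 *ᵥ v) := by
    intro k
    obtain ⟨k', hk', h⟩ := hadj k.1 k.2
    exact ⟨⟨k', hk'⟩, h⟩
  choose τ hτ using hex
  have huniq : ∀ (k k' : ↥K), (∀ u v : Fin n → F, f (k.1 *ᵥ u) v = f u (k'.1 *ᵥ v)) →
      τ k = k' := by
    intro k k' h
    apply Subtype.ext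
    apply FLDS_adj_unique f hf
    intro u v
    rw [← hτ k u v, h u v]
  have hτmul : ∀ k l : ↥K, τ (k * l) = τ k * τ l := by
    intro k l
    apply huniq
    intro u v
    have e1 : ((k * l : ↥K) : Matrix (Fin n) (Fin n) F) *ᵥ u = k.1 *ᵥ (l.1 *ᵥ u) := by
      rw [Matrix.mulVec_mulVec]; rfl
    have e2 : ((τ k * τ l : ↥K) : Matrix (Fin n) (Fin n) F) *ᵥ v =
        (τ l).1 *ᵥ ((τ k).1 *ᵥ v) := by
      rw [Matrix.mulVec_mulVec]
      congr 1
      exact hK.comm _ (τ k).2 _ (τ l).2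
    rw [e1, e2, hτ k, hτ l]
  have hτadd : ∀ k l : ↥K, τ (k + l) = τ k + τ l := by
    intro k l
    apply huniq
    intro u v
    have e1 : ((k + l : ↥K) : Matrix (Fin n) (Fin n) F) *ᵥ u = k.1 *ᵥ u + l.1 *ᵥ u :=
      Matrix.add_mulVec k.1 l.1 u
    have e2 : ((τ k + τ l : ↥K) : Matrix (Fin n) (Fin n) F) *ᵥ v =
        (τ k).1 *ᵥ v + (τ l).1 *ᵥ v := Matrix.add_mulVec _ _ v
    rw [e1, e2, hb.add_left, hb.add_right, hτ k, hτ l]
  have hτone : τ 1 = 1 := by
    apply huniq
    intro u v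
    have e1 : ((1 : ↥K) : Matrix (Fin n) (Fin n) F) *ᵥ u = u := Matrix.one_mulVec u
    have e2 : ((1 : ↥K) : Matrix (Fin n) (Fin n) F) *ᵥ v = v := Matrix.one_mulVec v
    rw [e1, e2]
  have hτzero : τ 0 = 0 := by
    apply huniq
    intro u v
    have e1 : ((0 : ↥K) : Matrix (Fin n) (Fin n) F) *ᵥ u = 0 := Matrix.zero_mulVec u
    have e2 : ((0 : ↥K) : Matrix (Fin n) (Fin n) F) *ᵥ v = 0 := Matrix.zero_mulVec v
    rw [e1, e2, FLDS_zero_right f hb, FLDS_zero_left f hb]
  have hτalg : ∀ c : F, τ (algebraMap F ↥K c) = algebraMap F ↥K c := by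
    intro c
    apply huniq
    intro u v
    have e1 : ∀ w : Fin n → F,
        ((algebraMap F ↥K c : ↥K) : Matrix (Fin n) (Fin n) F) *ᵥ w = c • w := by
      intro w
      have e0 : ((algebraMap F ↥K c : ↥K) : Matrix (Fin n) (Fin n) F) =
          c • (1 : Matrix (Fin n) (Fin n) F) := by
        rw [Subalgebra.coe_algebraMap, Algebra.algebraMap_eq_smul_one]
      rw [e0, Matrix.smul_mulVec, Matrix.one_mulVec]
    rw [e1, e1, hb.smul_left, hb.smul_right]
  have hτinv : ∀ k : ↥K, τ (τ k) = k := by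
    intro k
    apply huniq
    intro u v
    rw [hf.symm ((τ k).1 *ᵥ u) v, ← hτ k v u, hf.symm (k.1 *ᵥ v) u]
  -- `τ` is an `F`-algebra automorphism of order dividing 2
  let τh : ↥K →ₐ[F] ↥K :=
    { toFun := τ
      map_one' := hτone
      map_mul' := hτmul
      map_zero' := hτzero
      map_add' := hτadd
      commutes' := hτalg }
  have hcomp : τh.comp τh = AlgHom.id F ↥K := AlgHom.ext (fun k => hτinv k)
  let τe : ↥K ≃ₐ[F] ↥K := AlgEquiv.ofAlgHom τh τh hcomp hcomp
  have hτe2 : τe * τe = 1 := AlgEquiv.ext (fun k => hτinv k)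
  have hτe1 : τe = 1 := by
    have hcard : Nat.card (↥K ≃ₐ[F] ↥K) = r := by
      rw [IsGalois.card_aut_eq_finrank F ↥K]; exact hK.finrank_eq
    have ho2 : orderOf τe ∣ 2 := orderOf_dvd_of_pow_eq_one (by rw [pow_two]; exact hτe2)
    have hor : orderOf τe ∣ r := by rw [← hcard]; exact orderOf_dvd_natCard τe
    have h1 : orderOf τe ∣ Nat.gcd 2 r := Nat.dvd_gcd ho2 hor
    have hg : Nat.gcd 2 r = 1 := Nat.coprime_two_left.2 hr
    rw [hg, Nat.dvd_one] at h1
    exact orderOf_eq_one_iff.1 h1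
  have hτid : ∀ k : ↥K, τ k = k := by
    intro k
    have h1 : τe k = (1 : ↥K ≃ₐ[F] ↥K) k := by rw [hτe1]
    exact h1
  intro k hk u v
  have h1 := hτ ⟨k, hk⟩ u v
  rw [hτid ⟨k, hk⟩] at h1
  exact h1

end Cfsg.Agent.Lib.Helper44.O9
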