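import Cfsg.Agent.Lib.Helper96.PiDefs
import Cfsg.Agent.Lib.Helper96.PiGlueB
import Cfsg.Agent.Lib.Helper96.PiOmega
import Cfsg.Agent.Lib.Helper9.HeUNIPPOW
import Cfsg.Agent.Lib.Helper98.O72Defs

/-!
Project PI (S5989, helper96): piece X2STEP (helper62).
-/

set_option autoImplicit false
set_option linter.unusedSectionVars false
set_option linter.unusedVariables false

namespace Cfsg.Agent.Lib.Helper62.Pi

open Module Cfsg.Agent.Lib.Helper96.Sp Cfsg.Agent.Lib.Helper96.BG Cfsg.Agent.Lib.Helper96.Hy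
  Cfsg.Agent.Lib.Helper96.Pi Cfsg.Agent.Lib.Helper47

universe u

variable {F : Type u} [Field F] [Fintype F] {V : Type u} [AddCommGroup V] [Module F V]
  [FiniteDimensional F V] {B : LinearMap.BilinForm F V}

-- PIECE X2STEP
theorem sq_neg_step (hS : B.IsSymm) (h2 : (2 : F) ≠ 0) (hN : ND B ⊤) (x : Module.End F V)
    (hx : Isom B x) (hx2 : x * x = -1) (W : Submodule F V) (hW : ND B W) (hWx : W.map x ≤ W)
    (v : V) (hvW : v ∈ W) (hv : B v v ≠ 0)
    (hP : ND B (Submodule.span F {v, x v}) ∧ finrank F (Submodule.span F {v, x v}) = 2 ∧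
      (Submodule.span F {v, x v}).map x ≤ Submodule.span F {v, x v} ∧
      B v (x v) = 0 ∧ B (x v) (x v) = B v v) :
    ND B (W ⊓ B.orthogonal (Submodule.span F {v, x v})) ∧
    (W ⊓ B.orthogonal (Submodule.span F {v, x v})).map x ≤
      W ⊓ B.orthogonal (Submodule.span F {v, x v}) ∧
    finrank F ↥(W ⊓ B.orthogonal (Submodule.span F {v, x v})) + 2 = finrank F W ∧
    Submodule.span F {v, x v} ⊔ (W ⊓ B.orthogonal (Submodule.span F {v, x v})) = W ∧
    Orth B (Submodule.span F {v, x v}) (W ⊓ B.orthogonal (Submodule.span F {v, x v})) := by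
  obtain ⟨hPnd, hPfin, hPx, hvx, hxx⟩ := hP
  have hxx2 : ∀ a : V, x (x a) = -a := by
    intro a
    have h := LinearMap.congr_fun hx2 a
    simpa using h
  have hxvW : x v ∈ W := hWx (Submodule.mem_map_of_mem hvW)
  have hPW : Submodule.span F {v, x v} ≤ W := by
    rw [Submodule.span_le]
    intro a ha
    simp only [Set.mem_insert_iff, Set.mem_singleton_iff] at ha
    rcases ha with rfl | rfl
    · exact hvW
    · exact hxvW
  obtain ⟨h1, h3, h4⟩ := Cfsg.Agent.Lib.Helper98.O72.nd_rel hS h2 hPnd hW hPW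
  refine ⟨h1, ?_, by omega, h3, ?_⟩
  · rintro _ ⟨w, hw, rfl⟩
    refine ⟨hWx (Submodule.mem_map_of_mem hw.1), ?_⟩
    refine mem_perp_iff.mpr ?_
    intro u hu
    have hu' : -(x u) ∈ Submodule.span F {v, x v} :=
      neg_mem (hPx (Submodule.mem_map_of_mem hu))
    have e : u = x (-(x u)) := by rw [map_neg, hxx2, neg_neg]
    rw [e, hx (-(x u)) w]
    exact mem_perp_iff.mp hw.2 _ hu'
  · intro u hu w hw
    exact mem_perp_iff.mp hw.2 u hu

end Cfsg.Agent.Lib.Helper62.Pi
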