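import Cfsg.Prelude.Def_LieExceptional
import Mathlib

/-!
# Piece ZZ of the S0508 project (helper46): the Zassenhaus axioms for a simple group
acting on the cosets of `N(Q)` with `Q` regular off the base point.
-/

set_option autoImplicit false

namespace Cfsg.Agent.Lib.Helper46.BSW

open Cfsg

universe u

variable {G : Type u} [Group G]

/-! ### Piece ZZ : the Zassenhaus axioms -/
theorem zass_of_regular [Finite G] [IsSimpleGroup G] {Ω : Type*} [MulAction G Ω] [Finite Ω]
    [MulAction.IsPretransitive G Ω] (x : Ω) (Q : Subgroup G)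
    (hstab : MulAction.stabilizer G x = Subgroup.normalizer (Q : Set G))
    (hcent : ∀ y ∈ Q, y ≠ 1 → Subgroup.centralizer ({y} : Set G) = Q)
    (hreg : ∀ y z : Ω, y ≠ x → z ≠ x → ∃! u : Q, (u : G) • y = z)
    (hΩ : 4 ≤ Nat.card Ω) (hd : ∃ d ∈ Subgroup.normalizer (Q : Set G), d ∉ Q) :
    Cfsg.IsZassenhausGroup G Ω := by
  -- basic facts
  have hNx : ∀ g ∈ Subgroup.normalizer (Q : Set G), g • x = x := by
    intro g hg
    rw [← hstab] at hg
    exact MulAction.mem_stabilizer_iff.mp hg
  have hxN : ∀ g : G, g • x = x → g ∈ Subgroup.normalizer (Q : Set G) := by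
    intro g hg
    rw [← hstab]
    exact MulAction.mem_stabilizer_iff.mpr hg
  have hQx : ∀ u ∈ Q, u • x = x := fun u hu => hNx u (Subgroup.le_normalizer hu)
  have hfree : ∀ u ∈ Q, ∀ b : Ω, b ≠ x → u • b = b → u = 1 := by
    intro u hu b hb hub
    obtain ⟨v, -, hv⟩ := hreg b b hb hb
    have h1 := hv ⟨u, hu⟩ hub
    have h2 := hv ⟨1, Q.one_mem⟩ (one_smul G b)
    exact congrArg Subtype.val (h1.trans h2.symm)
  haveI : Nontrivial Ω := (Finite.one_lt_card_iff_nontrivial).mp (by omega)
  obtain ⟨b₀, hb₀⟩ := exists_ne x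
  obtain ⟨d, hdN, hdQ⟩ := hd
  have hdx : d • x = x := hNx d hdN
  refine ⟨?_, ?_, ?_, ?_, ?_⟩
  · -- faithful
    have hker : (MulAction.toPermHom G Ω).ker = ⊥ := by
      rcases (inferInstance : ((MulAction.toPermHom G Ω).ker).Normal).eq_bot_or_eq_top with h | h
      · exact h
      · exfalso
        obtain ⟨g, hg⟩ := MulAction.exists_smul_eq G x b₀
        have hgk : g ∈ (MulAction.toPermHom G Ω).ker := by rw [h]; exact Subgroup.mem_top g
        rw [MonoidHom.mem_ker] at hgk
        have h1 : (MulAction.toPermHom G Ω g) x = x := by rw [hgk]; rfl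
        rw [MulAction.toPermHom_apply, MulAction.toPerm_apply] at h1
        exact hb₀ (hg.symm.trans h1)
    refine ⟨fun {g₁ g₂} hg => ?_⟩
    have hmem : g₂⁻¹ * g₁ ∈ (MulAction.toPermHom G Ω).ker := by
      rw [MonoidHom.mem_ker]
      ext a
      rw [MulAction.toPermHom_apply, MulAction.toPerm_apply, mul_smul, hg a, inv_smul_smul]
      rfl
    rw [hker, Subgroup.mem_bot] at hmem
    exact (inv_mul_eq_one.mp hmem).symm
  · -- 2-transitive
    refine ⟨fun a b => ?_⟩
    obtain ⟨g₁, hg₁⟩ := MulAction.exists_smul_eq G (a 0) x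
    obtain ⟨g₂, hg₂⟩ := MulAction.exists_smul_eq G (b 0) x
    have h1 : g₁ • a 1 ≠ x := by
      intro h
      rw [← hg₁] at h
      have := a.injective (MulAction.injective g₁ h)
      exact absurd this (by decide)
    have h2 : g₂ • b 1 ≠ x := by
      intro h
      rw [← hg₂] at h
      have := b.injective (MulAction.injective g₂ h)
      exact absurd this (by decide)
    obtain ⟨u, hu, -⟩ := hreg (g₁ • a 1) (g₂ • b 1) h1 h2
    refine ⟨g₂⁻¹ * (u : G) * g₁, ?_⟩
    ext i
    rw [Function.Embedding.smul_apply]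
    fin_cases i
    · show (g₂⁻¹ * (u : G) * g₁) • a 0 = b 0
      rw [mul_smul, mul_smul, hg₁, hQx u u.2, inv_smul_eq_iff, hg₂]
    · show (g₂⁻¹ * (u : G) * g₁) • a 1 = b 1
      rw [mul_smul, mul_smul, hu, inv_smul_smul]
  · -- no non-identity element fixes three points
    intro g a b c hab hbc hac hga hgb hgc
    obtain ⟨h, hh⟩ := MulAction.exists_smul_eq G a x
    have hinv : ∀ p : Ω, (h * g * h⁻¹) • (h • p) = h • (g • p) := by
      intro p
      rw [mul_smul, mul_smul, inv_smul_smul]
    have hg'x : (h * g * h⁻¹) • x = x := by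
      have := hinv a
      rw [hh, hga, hh] at this
      exact this
    have hg'b : (h * g * h⁻¹) • (h • b) = h • b := by rw [hinv b, hgb]
    have hg'c : (h * g * h⁻¹) • (h • c) = h • c := by rw [hinv c, hgc]
    have hb' : h • b ≠ x := by
      intro e
      rw [← hh] at e
      exact hab (MulAction.injective h e).symm
    have hc' : h • c ≠ x := by
      intro e
      rw [← hh] at e
      exact hac (MulAction.injective h e).symm
    have hbc' : h • b ≠ h • c := fun e => hbc (MulAction.injective h e)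
    have hg'N : h * g * h⁻¹ ∈ Subgroup.normalizer (Q : Set G) := hxN _ hg'x
    obtain ⟨y, hy, hyu⟩ := hreg (h • b) (h • c) hb' hc'
    have hy1 : (y : G) ≠ 1 := by
      intro e
      rw [e, one_smul] at hy
      exact hbc' hy
    have hy'Q : (h * g * h⁻¹) * (y : G) * (h * g * h⁻¹)⁻¹ ∈ Q :=
      (Subgroup.mem_normalizer_iff.mp hg'N (y : G)).mp y.2
    have hy' : ((h * g * h⁻¹) * (y : G) * (h * g * h⁻¹)⁻¹) • (h • b) = h • c := by
      have e1 : (h * g * h⁻¹)⁻¹ • (h • b) = h • b := by
        rw [inv_smul_eq_iff, hg'b]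
      rw [mul_smul, mul_smul, e1, hy, hg'c]
    have hyeq := hyu ⟨_, hy'Q⟩ hy'
    have hyeq' : (h * g * h⁻¹) * (y : G) * (h * g * h⁻¹)⁻¹ = (y : G) := congrArg Subtype.val hyeq
    have hg'C : h * g * h⁻¹ ∈ Subgroup.centralizer ({(y : G)} : Set G) := by
      rw [Subgroup.mem_centralizer_iff]
      intro z hz
      rw [Set.mem_singleton_iff] at hz
      subst hz
      exact (mul_inv_eq_iff_eq_mul.mp hyeq').symm
    rw [hcent (y : G) y.2 hy1] at hg'C
    have h1 : h * g * h⁻¹ = 1 := hfree _ hg'C (h • b) hb' hg'b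
    have h2 : g = h⁻¹ * (h * g * h⁻¹) * h := by group
    rw [h2, h1]
    group
  · -- some non-identity element fixes two points
    have hc : d • b₀ ≠ x := by
      intro e
      rw [← hdx] at e
      exact hb₀ (MulAction.injective d e)
    obtain ⟨u, hu, -⟩ := hreg (d • b₀) b₀ hc hb₀
    refine ⟨(u : G) * d, ?_, x, b₀, hb₀.symm, ?_, ?_⟩
    · intro e
      apply hdQ
      have : d = (u : G)⁻¹ := eq_inv_of_mul_eq_one_right e
      rw [this]
      exact Q.inv_mem u.2
    · rw [mul_smul, hdx, hQx u u.2]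
    · rw [mul_smul, hu]
  · -- no regular normal subgroup
    intro M hM hMt
    rcases hM.eq_bot_or_eq_top with h | h
    · exfalso
      subst h
      obtain ⟨m, hm⟩ := MulAction.exists_smul_eq (↥(⊥ : Subgroup G)) x b₀
      have hm1 : (m : G) = 1 := Subgroup.mem_bot.mp m.2
      rw [Subgroup.smul_def, hm1, one_smul] at hm
      exact hb₀ hm.symm
    · subst h
      refine ⟨x, fun hbot => ?_⟩
      have hmem : (⟨d, Subgroup.mem_top d⟩ : (⊤ : Subgroup G)) ∈
          MulAction.stabilizer (↥(⊤ : Subgroup G)) x := by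
        rw [MulAction.mem_stabilizer_iff, Subgroup.smul_def]
        exact hdx
      rw [hbot, Subgroup.mem_bot] at hmem
      have : d = 1 := congrArg Subtype.val hmem
      exact hdQ (this ▸ Q.one_mem)

end Cfsg.Agent.Lib.Helper46.BSW
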