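import Cfsg.Agent.Lib.Helper98.H90Defs
import Cfsg.Agent.Lib.Helper51.HypPairs
import Cfsg.Agent.Lib.Helper96.SpFix
import Cfsg.Agent.Lib.Lead.PiU2

/-!
# Project H74, batch 2 (S5990, helper98), piece SIEGINVM (helper62)

Characteristic 2, `S` an invertible alternating matrix, `x = fromBlocks (fromBlocks 1 S 0 1) 0 0 1`
acting on the space of `quadFormMinus`: every `x`-invariant nondegenerate subspace `W` whose
dimension is divisible by 4 is of plus type.  With `N = x - 1`: the kernel of `N` is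
`U₀ ⊕ E` with `U₀` totally singular and `E` of dimension 2, the range of `N` lies in `U₀`, and
`(u, v) ↦ B (u, N v)` is alternating with radical `ker (N|W)` on `W`, so the rank of `N|W` is
even; counting dimensions `W ⊓ U₀` has half the dimension of `W`.
-/

set_option autoImplicit false

namespace Cfsg.Agent.Lib.Helper98.H74

open Cfsg.Agent.Lib.Helper47 Cfsg.Agent.Lib.Helper98.T73 Module Polynomial

universe u

variable {F : Type u} [Field F] [Fintype F]

/-- the polar form of `quadFormMinus` as a bilinear form -/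
noncomputable def sieginvm_B (k : ℕ) (a b : F) :
    LinearMap.BilinForm F ((Fin k ⊕ Fin k) ⊕ Fin 2 → F) :=
  QuadraticMap.polarBilin (Cfsg.Agent.Lib.Helper51.QMinus k F a b)

/-- the nilpotent part of the Siegel element -/
noncomputable def sieginvm_N (k : ℕ) (S : Matrix (Fin k) (Fin k) F) :
    Module.End F ((Fin k ⊕ Fin k) ⊕ Fin 2 → F) :=
  Matrix.toLin' (Matrix.fromBlocks (Matrix.fromBlocks 1 S 0 1) 0 0 1 :
    Matrix ((Fin k ⊕ Fin k) ⊕ Fin 2) ((Fin k ⊕ Fin k) ⊕ Fin 2) F) - 1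

theorem sieginvm_B_apply [CharP F 2] (k : ℕ) (a b : F) (u x : (Fin k ⊕ Fin k) ⊕ Fin 2 → F) :
    sieginvm_B k a b u x =
      (∑ i : Fin k, (u (Sum.inl (Sum.inl i)) * x (Sum.inl (Sum.inr i))
          + x (Sum.inl (Sum.inl i)) * u (Sum.inl (Sum.inr i))))
        + a * (u (Sum.inr 0) * x (Sum.inr 1) + x (Sum.inr 0) * u (Sum.inr 1)) := by
  unfold sieginvm_B
  rw [QuadraticMap.polarBilin_apply_apply, Cfsg.Agent.Lib.Helper51.polar_QMinus]
  have h2 : (2 : F) = 0 := CharTwo.two_eq_zero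
  linear_combination (u (Sum.inr 0) * x (Sum.inr 0) + b * u (Sum.inr 1) * x (Sum.inr 1)) * h2

theorem sieginvm_polar (k : ℕ) (a b : F) (u v : (Fin k ⊕ Fin k) ⊕ Fin 2 → F) :
    QuadraticMap.polar (Cfsg.quadFormMinus k F a b) u v = sieginvm_B k a b u v := by
  unfold sieginvm_B
  rw [QuadraticMap.polarBilin_apply_apply, Cfsg.Agent.Lib.Helper51.coe_QMinus]

theorem sieginvm_N_ll (k : ℕ) (S : Matrix (Fin k) (Fin k) F)
    (u : (Fin k ⊕ Fin k) ⊕ Fin 2 → F) (i : Fin k) :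
    (sieginvm_N k S u) (Sum.inl (Sum.inl i)) = ∑ j : Fin k, S i j * u (Sum.inl (Sum.inr j)) := by
  simp [sieginvm_N, Matrix.toLin'_apply, Matrix.mulVec, dotProduct, Fintype.sum_sum_type,
    Matrix.one_apply]

theorem sieginvm_N_lr (k : ℕ) (S : Matrix (Fin k) (Fin k) F)
    (u : (Fin k ⊕ Fin k) ⊕ Fin 2 → F) (i : Fin k) :
    (sieginvm_N k S u) (Sum.inl (Sum.inr i)) = 0 := by
  simp [sieginvm_N, Matrix.toLin'_apply, Matrix.mulVec, dotProduct, Fintype.sum_sum_type,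
    Matrix.one_apply]

theorem sieginvm_N_r (k : ℕ) (S : Matrix (Fin k) (Fin k) F)
    (u : (Fin k ⊕ Fin k) ⊕ Fin 2 → F) (e : Fin 2) :
    (sieginvm_N k S u) (Sum.inr e) = 0 := by
  simp [sieginvm_N, Matrix.toLin'_apply, Matrix.mulVec, dotProduct, Fintype.sum_sum_type,
    Matrix.one_apply]

theorem sieginvm_beta [CharP F 2] (k : ℕ) (a b : F) (S : Matrix (Fin k) (Fin k) F)
    (u v : (Fin k ⊕ Fin k) ⊕ Fin 2 → F) :
    sieginvm_B k a b u (sieginvm_N k S v)
      = ∑ i : Fin k, ∑ j : Fin k, S i j * v (Sum.inl (Sum.inr j)) * u (Sum.inl (Sum.inr i)) := by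
  rw [sieginvm_B_apply, sieginvm_N_r, sieginvm_N_r, mul_zero, zero_mul, add_zero, mul_zero,
    add_zero]
  apply Finset.sum_congr rfl
  intro i _
  rw [sieginvm_N_ll, sieginvm_N_lr, mul_zero, zero_add, Finset.sum_mul]

theorem sieginvm_beta_symm [CharP F 2] (k : ℕ) (a b : F) (S : Matrix (Fin k) (Fin k) F)
    (hSt : S.transpose = S) (u v : (Fin k ⊕ Fin k) ⊕ Fin 2 → F) :
    sieginvm_B k a b u (sieginvm_N k S v) = sieginvm_B k a b v (sieginvm_N k S u) := by
  rw [sieginvm_beta, sieginvm_beta, Finset.sum_comm]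
  apply Finset.sum_congr rfl
  intro i _
  apply Finset.sum_congr rfl
  intro j _
  have h : S j i = S i j := by
    have h1 := congrFun (congrFun hSt i) j
    rw [Matrix.transpose_apply] at h1
    exact h1
  rw [h]
  ring

theorem sieginvm_beta_self [CharP F 2] (k : ℕ) (a b : F) (S : Matrix (Fin k) (Fin k) F)
    (hS0 : ∀ c, S c c = 0) (hSt : S.transpose = S) (u : (Fin k ⊕ Fin k) ⊕ Fin 2 → F) :
    sieginvm_B k a b u (sieginvm_N k S u) = 0 := by
  rw [sieginvm_beta, ← Finset.sum_product']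
  apply Finset.sum_involution (fun p _ => (p.2, p.1))
  · intro p _
    have h : S p.2 p.1 = S p.1 p.2 := by
      have h1 := congrFun (congrFun hSt p.1) p.2
      rw [Matrix.transpose_apply] at h1
      exact h1
    show S p.1 p.2 * u (Sum.inl (Sum.inr p.2)) * u (Sum.inl (Sum.inr p.1)) +
      S p.2 p.1 * u (Sum.inl (Sum.inr p.1)) * u (Sum.inl (Sum.inr p.2)) = 0
    rw [h]
    have h2 : S p.1 p.2 * u (Sum.inl (Sum.inr p.1)) * u (Sum.inl (Sum.inr p.2)) =
        S p.1 p.2 * u (Sum.inl (Sum.inr p.2)) * u (Sum.inl (Sum.inr p.1)) := by ring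
    rw [h2]
    exact CharTwo.add_self_eq_zero _
  · intro p _ hne heq
    apply hne
    have h1 : p.2 = p.1 := congrArg Prod.fst heq
    rw [h1, hS0, zero_mul, zero_mul]
  · intro p _
    exact Finset.mem_product.mpr ⟨Finset.mem_univ _, Finset.mem_univ _⟩
  · intro p _
    rfl

theorem sieginvm_ker (k : ℕ) (S : Matrix (Fin k) (Fin k) F) (hSdet : IsUnit S.det)
    (u : (Fin k ⊕ Fin k) ⊕ Fin 2 → F) (hu : sieginvm_N k S u = 0) (i : Fin k) :
    u (Sum.inl (Sum.inr i)) = 0 := by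
  have h1 : S.mulVec (fun j => u (Sum.inl (Sum.inr j))) = 0 := by
    funext c
    have h2 := congrFun hu (Sum.inl (Sum.inl c))
    rw [sieginvm_N_ll] at h2
    exact h2
  have h3 := Matrix.eq_zero_of_mulVec_eq_zero hSdet.ne_zero h1
  exact congrFun h3 i

theorem sieginvm_B_alt [CharP F 2] (k : ℕ) (a b : F) : (sieginvm_B k a b).IsAlt := by
  intro u
  rw [sieginvm_B_apply]
  have h1 : ∑ i : Fin k, (u (Sum.inl (Sum.inl i)) * u (Sum.inl (Sum.inr i))
      + u (Sum.inl (Sum.inl i)) * u (Sum.inl (Sum.inr i))) = 0 :=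
    Finset.sum_eq_zero (fun i _ => CharTwo.add_self_eq_zero _)
  rw [h1, CharTwo.add_self_eq_zero, mul_zero, add_zero]

theorem sieginvm_a_ne [CharP F 2] (a b : F)
    (hab : ∀ x y : F, x ^ 2 + a * x * y + b * y ^ 2 = 0 → x = 0 ∧ y = 0) : a ≠ 0 := by
  intro ha
  obtain ⟨c, hc⟩ := FiniteField.isSquare_of_char_two (ringChar.eq F 2) b
  have h0 : c ^ 2 + a * c * 1 + b * 1 ^ 2 = 0 := by
    rw [ha, hc]
    have h1 : c ^ 2 + 0 * c * 1 + c * c * 1 ^ 2 = c * c + c * c := by ring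
    rw [h1]
    exact CharTwo.add_self_eq_zero _
  exact one_ne_zero (hab c 1 h0).2

theorem sieginvm_B_nd [CharP F 2] (k : ℕ) (a b : F) (ha : a ≠ 0) :
    Cfsg.Agent.Lib.Helper96.Sp.ND (sieginvm_B k a b) ⊤ := by
  classical
  intro u _ h
  funext c
  rcases c with (i | i) | e
  · have h1 := h (Pi.single (Sum.inl (Sum.inr i)) 1) Submodule.mem_top
    rw [sieginvm_B_apply] at h1
    simpa [Pi.single_apply] using h1
  · have h1 := h (Pi.single (Sum.inl (Sum.inl i)) 1) Submodule.mem_top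
    rw [sieginvm_B_apply] at h1
    simpa [Pi.single_apply] using h1
  · have h0 := h (Pi.single (Sum.inr 1) 1) Submodule.mem_top
    have h1 := h (Pi.single (Sum.inr 0) 1) Submodule.mem_top
    rw [sieginvm_B_apply] at h0 h1
    simp [Pi.single_apply, ha] at h0 h1
    fin_cases e
    · exact h0
    · exact h1

/-- SIEGINVM -/
theorem siegel_plus_of_four_dvd [CharP F 2] (k : ℕ) (a b : F)
    (hab : ∀ x y : F, x ^ 2 + a * x * y + b * y ^ 2 = 0 → x = 0 ∧ y = 0)
    (S : Matrix (Fin k) (Fin k) F) (hS0 : ∀ c, S c c = 0) (hSt : S.transpose = S)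
    (hSdet : IsUnit S.det) (W : Submodule F ((Fin k ⊕ Fin k) ⊕ Fin 2 → F))
    (hWnd : Cfsg.Geo.IsNondegenerateOn (QuadraticMap.polar (Cfsg.quadFormMinus k F a b)) W)
    (hWx : W.map (Matrix.toLin' (Matrix.fromBlocks (Matrix.fromBlocks 1 S 0 1) 0 0 1 :
      Matrix ((Fin k ⊕ Fin k) ⊕ Fin 2) ((Fin k ⊕ Fin k) ⊕ Fin 2) F)) ≤ W)
    (h4 : 4 ∣ finrank F W) : Cfsg.Geo.IsPlusTypeOn (Cfsg.quadFormMinus k F a b) W := by
  classical
  have ha : a ≠ 0 := sieginvm_a_ne a b hab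
  obtain ⟨N, hNdef⟩ : ∃ N : Module.End F ((Fin k ⊕ Fin k) ⊕ Fin 2 → F),
      N = sieginvm_N k S := ⟨_, rfl⟩
  obtain ⟨B, hBdef⟩ : ∃ B : LinearMap.BilinForm F ((Fin k ⊕ Fin k) ⊕ Fin 2 → F),
      B = sieginvm_B k a b := ⟨_, rfl⟩
  obtain ⟨π, hπ⟩ : ∃ π : ((Fin k ⊕ Fin k) ⊕ Fin 2 → F) →ₗ[F] (Fin 2 → F),
      ∀ w e, π w e = w (Sum.inr e) := ⟨LinearMap.funLeft F F Sum.inr, fun w e => rfl⟩
  have hA : B.IsAlt := by
    rw [hBdef]
    exact sieginvm_B_alt k a b
  have hNtop : Cfsg.Agent.Lib.Helper96.Sp.ND B ⊤ := by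
    rw [hBdef]
    exact sieginvm_B_nd k a b ha
  have hsymB : ∀ u v, B u v = B v u := by
    intro u v
    rw [hBdef, sieginvm_B_apply, sieginvm_B_apply]
    congr 1
    · apply Finset.sum_congr rfl
      intro i _
      ring
    · ring
  have hWND : Cfsg.Agent.Lib.Helper96.Sp.ND B W := by
    intro u hu h
    by_contra hne
    obtain ⟨v, hv, hv'⟩ := (hWnd u hu hne).2
    rw [sieginvm_polar, ← hBdef] at hv'
    exact hv' (h v hv)
  have hN' : ∀ w, N w = Matrix.toLin' (Matrix.fromBlocks (Matrix.fromBlocks 1 S 0 1) 0 0 1 :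
      Matrix ((Fin k ⊕ Fin k) ⊕ Fin 2) ((Fin k ⊕ Fin k) ⊕ Fin 2) F) w - w := by
    intro w
    rw [hNdef]
    rfl
  have hNW : ∀ w ∈ W, N w ∈ W := by
    intro w hw
    rw [hN']
    exact W.sub_mem (hWx (Submodule.mem_map_of_mem hw)) hw
  have hbeta : ∀ u v, B u (N v) = B v (N u) := by
    intro u v
    rw [hBdef, hNdef]
    exact sieginvm_beta_symm k a b S hSt u v
  have hbeta0 : ∀ u, B u (N u) = 0 := by
    intro u
    rw [hBdef, hNdef]
    exact sieginvm_beta_self k a b S hS0 hSt u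
  have hker : ∀ u, N u = 0 → ∀ i, u (Sum.inl (Sum.inr i)) = 0 := by
    intro u hu
    rw [hNdef] at hu
    exact sieginvm_ker k S hSdet u hu
  have hNN : ∀ w, N (N w) = 0 := by
    intro w
    have h1 : ∀ c, (N (N w)) c = 0 := by
      intro c
      rw [hNdef]
      rcases c with (i | i) | e
      · rw [sieginvm_N_ll]
        apply Finset.sum_eq_zero
        intro j _
        rw [sieginvm_N_lr, mul_zero]
      · rw [sieginvm_N_lr]
      · rw [sieginvm_N_r]
    funext c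
    exact h1 c
  have hrn := Cfsg.Agent.Lib.Lead.Pi.piU2_rank_nullity N W
  have hKW : W ⊓ LinearMap.ker N ≤ W := inf_le_left
  -- the rank of `N` on `W` is even
  obtain ⟨q, hq⟩ := Submodule.exists_isCompl (W ⊓ LinearMap.ker N)
  have hUK : (W ⊓ q) ⊓ (W ⊓ LinearMap.ker N) = ⊥ := by
    rw [eq_bot_iff]
    intro x hx
    have h1 : x ∈ (W ⊓ LinearMap.ker N) ⊓ q := ⟨hx.2, hx.1.2⟩
    rw [hq.inf_eq_bot] at h1
    exact h1
  have hUsup : (W ⊓ LinearMap.ker N) ⊔ (W ⊓ q) = W := by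
    have h1 := sup_inf_assoc_of_le q hKW
    rw [hq.sup_eq_top, top_inf_eq] at h1
    rw [inf_comm W q]
    exact h1.symm
  have hdimU : finrank F ↥(W ⊓ q) + finrank F ↥(W ⊓ LinearMap.ker N) = finrank F W := by
    have h1 := Submodule.finrank_sup_add_finrank_inf_eq (W ⊓ LinearMap.ker N) (W ⊓ q)
    rw [hUsup, inf_comm (W ⊓ LinearMap.ker N) (W ⊓ q), hUK, finrank_bot] at h1
    omega
  have hUND : Cfsg.Agent.Lib.Helper96.Sp.ND (B.compl₂ N) (W ⊓ q) := by
    intro u hu h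
    have hNu : N u = 0 := by
      apply hWND (N u) (hNW u hu.1)
      intro w hw
      rw [hsymB, hbeta w u]
      rw [← hUsup] at hw
      obtain ⟨y, hy, v, hv, rfl⟩ := Submodule.mem_sup.mp hw
      rw [map_add, map_add, LinearMap.mem_ker.mp hy.2, map_zero, zero_add]
      exact h v hv
    have hu0 : u ∈ (W ⊓ q) ⊓ (W ⊓ LinearMap.ker N) := ⟨hu, hu.1, LinearMap.mem_ker.mpr hNu⟩
    rw [hUK] at hu0
    exact hu0
  have hbalt : (B.compl₂ N).IsAlt := fun u => hbeta0 u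
  obtain ⟨s, hs⟩ := Cfsg.Agent.Lib.Helper96.Sp.even_finrank_of_nd hbalt (W ⊓ q) hUND
  -- the totally singular subspace
  have hIT : W.map N ≤ W ⊓ (LinearMap.ker N ⊓ LinearMap.ker π) := by
    rintro _ ⟨w, hw, rfl⟩
    refine ⟨hNW w hw, LinearMap.mem_ker.2 (hNN w), LinearMap.mem_ker.2 ?_⟩
    funext e
    rw [hπ, Pi.zero_apply, hNdef]
    exact sieginvm_N_r k S w e
  have hTK : W ⊓ (LinearMap.ker N ⊓ LinearMap.ker π) ≤ W ⊓ LinearMap.ker N :=
    inf_le_inf_left W inf_le_left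
  have hQ0 : ∀ w ∈ W ⊓ (LinearMap.ker N ⊓ LinearMap.ker π),
      Cfsg.quadFormMinus k F a b w = 0 := by
    intro w hw
    have hlr := hker w (LinearMap.mem_ker.1 hw.2.1)
    have hπw : π w = 0 := LinearMap.mem_ker.1 hw.2.2
    have hr : ∀ e, w (Sum.inr e) = 0 := fun e => by rw [← hπ w e, hπw, Pi.zero_apply]
    have hsum : ∑ i : Fin k, w (Sum.inl (Sum.inl i)) * w (Sum.inl (Sum.inr i)) = 0 :=
      Finset.sum_eq_zero (fun i _ => by rw [hlr i, mul_zero])
    unfold Cfsg.quadFormMinus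
    rw [hr 0, hr 1, hsum]
    ring
  have hTiso : W ⊓ (LinearMap.ker N ⊓ LinearMap.ker π) ≤
      W ⊓ B.orthogonal (W ⊓ (LinearMap.ker N ⊓ LinearMap.ker π)) := by
    refine le_inf inf_le_left ?_
    intro x hx
    rw [Cfsg.Agent.Lib.Helper96.Sp.mem_perp_iff]
    intro y hy
    rw [hBdef, sieginvm_B_apply]
    have hxl := hker x (LinearMap.mem_ker.1 hx.2.1)
    have hyl := hker y (LinearMap.mem_ker.1 hy.2.1)
    have hπx : π x = 0 := LinearMap.mem_ker.1 hx.2.2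
    have hπy : π y = 0 := LinearMap.mem_ker.1 hy.2.2
    have hxr : ∀ e, x (Sum.inr e) = 0 := fun e => by rw [← hπ x e, hπx, Pi.zero_apply]
    have hyr : ∀ e, y (Sum.inr e) = 0 := fun e => by rw [← hπ y e, hπy, Pi.zero_apply]
    have hsum : ∑ i : Fin k, (y (Sum.inl (Sum.inl i)) * x (Sum.inl (Sum.inr i))
        + x (Sum.inl (Sum.inl i)) * y (Sum.inl (Sum.inr i))) = 0 :=
      Finset.sum_eq_zero (fun i _ => by rw [hxl i, hyl i, mul_zero, mul_zero, add_zero])
    rw [hsum, hxr 0, hxr 1, hyr 0, hyr 1]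
    ring
  have hfpT := Cfsg.Agent.Lib.Helper96.Sp.finrank_inf_perp hA hNtop
    (inf_le_left : W ⊓ (LinearMap.ker N ⊓ LinearMap.ker π) ≤ W) hWND
  have hKT : finrank F ↥(W ⊓ LinearMap.ker N) ≤
      finrank F ↥(W ⊓ (LinearMap.ker N ⊓ LinearMap.ker π)) + 2 := by
    have h1 := LinearMap.finrank_range_add_finrank_ker (π.comp (W ⊓ LinearMap.ker N).subtype)
    have h2 : finrank F ↥(LinearMap.range (π.comp (W ⊓ LinearMap.ker N).subtype)) ≤ 2 := by
      have h3 := Submodule.finrank_le (LinearMap.range (π.comp (W ⊓ LinearMap.ker N).subtype))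
      rw [Module.finrank_fin_fun] at h3
      exact h3
    have h5 : finrank F ↥(LinearMap.ker (π.comp (W ⊓ LinearMap.ker N).subtype)) ≤
        finrank F ↥(W ⊓ (LinearMap.ker N ⊓ LinearMap.ker π)) := by
      rw [← Submodule.finrank_map_subtype_eq (W ⊓ LinearMap.ker N)
        (LinearMap.ker (π.comp (W ⊓ LinearMap.ker N).subtype))]
      apply Submodule.finrank_mono
      rintro _ ⟨y, hy, rfl⟩
      have hy' : π (y : (Fin k ⊕ Fin k) ⊕ Fin 2 → F) = 0 := LinearMap.mem_ker.1 hy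
      exact ⟨y.2.1, y.2.2, LinearMap.mem_ker.2 hy'⟩
    omega
  refine ⟨W ⊓ (LinearMap.ker N ⊓ LinearMap.ker π), inf_le_left, hQ0, ?_⟩
  have hIle := Submodule.finrank_mono hIT
  have hTle := Submodule.finrank_mono hTK
  have hT2 := Submodule.finrank_mono hTiso
  obtain ⟨m, hm⟩ := h4
  omega

end Cfsg.Agent.Lib.Helper98.H74
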