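import Mathlib
import Cfsg.Agent.Lib.Helper72.JLDefs
import Cfsg.Agent.Lib.Helper82.JcOCPC
import Cfsg.Agent.S0612

/-!
S2942 project JL, piece EXTA (helper62 for helper72): `H = ⟨best offenders⟩` has
`h * h ∈ O_3(H)` for all `h ∈ H`, given the commutator statement EXTM for minimal best offenders.
-/

set_option autoImplicit false

namespace Cfsg.Agent.Lib.Helper62.JL

open Cfsg.Agent.Lib.Helper72.JL Cfsg.Agent.Lib.Helper72.SC Cfsg.Agent.Lib.Helper78.Jc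

open scoped commutatorElement

universe u

theorem exta (h : ExtmStmt.{u}) : ExtaStmt.{u} := by
  intro G _ _ V H hV hHV hf hS1 hS3
  classical
  have : Fact (Nat.Prime 2) := ⟨Nat.prime_two⟩
  have hnorm : ∀ x ∈ H, ∀ n ∈ (Cfsg.pCore 3 ↥H).map H.subtype,
      x * n * x⁻¹ ∈ (Cfsg.pCore 3 ↥H).map H.subtype := by
    intro x hx n hn
    obtain ⟨n', hn', rfl⟩ := hn
    have hN : (Cfsg.pCore 3 ↥H).Normal := Cfsg.Agent.Lib.Helper82.Jc.pCore_normal_aux 3 ↥H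
    exact ⟨⟨x, hx⟩ * n' * ⟨x, hx⟩⁻¹, hN.conj_mem n' hn' ⟨x, hx⟩, rfl⟩
  generalize hN3 : (Cfsg.pCore 3 ↥H).map H.subtype = N3 at hnorm ⊢
  let S : Subgroup G :=
    { carrier := {x | x ∈ H ∧ x * x ∈ N3 ∧ ∀ g ∈ H, g * x * g⁻¹ * x⁻¹ ∈ N3}
      one_mem' := by
        refine ⟨H.one_mem, ?_, fun g _ => ?_⟩
        · rw [mul_one]; exact N3.one_mem
        · have e : g * 1 * g⁻¹ * (1 : G)⁻¹ = 1 := by group
          rw [e]; exact N3.one_mem
      mul_mem' := by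
        rintro x y ⟨hx, hxx, hxc⟩ ⟨hy, hyy, hyc⟩
        refine ⟨H.mul_mem hx hy, ?_, fun g hg => ?_⟩
        · have e : x * y * (x * y) = (x * x) * (x⁻¹ * y * x⁻¹⁻¹ * y⁻¹) * (y * y) := by group
          rw [e]
          exact N3.mul_mem (N3.mul_mem hxx (hyc x⁻¹ (H.inv_mem hx))) hyy
        · have e : g * (x * y) * g⁻¹ * (x * y)⁻¹ =
              (g * x * g⁻¹ * x⁻¹) * (x * (g * y * g⁻¹ * y⁻¹) * x⁻¹) := by group
          rw [e]
          exact N3.mul_mem (hxc g hg) (hnorm x hx _ (hyc g hg))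
      inv_mem' := by
        rintro x ⟨hx, hxx, hxc⟩
        refine ⟨H.inv_mem hx, ?_, fun g hg => ?_⟩
        · have e : x⁻¹ * x⁻¹ = (x * x)⁻¹ := by group
          rw [e]
          exact N3.inv_mem hxx
        · have e : g * x⁻¹ * g⁻¹ * x⁻¹⁻¹ = x⁻¹ * (g * x * g⁻¹ * x⁻¹)⁻¹ * x⁻¹⁻¹ := by group
          rw [e]
          exact hnorm x⁻¹ (H.inv_mem hx) _ (N3.inv_mem (hxc g hg)) }
  have hmemS : ∀ x, x ∈ S ↔ x ∈ H ∧ x * x ∈ N3 ∧ ∀ g ∈ H, g * x * g⁻¹ * x⁻¹ ∈ N3 :=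
    fun x => Iff.rfl
  -- every best offender inside `H` lies in `S`
  have hAS : ∀ A : Subgroup G, A ≤ H → Cfsg.IsBestOffenderOn 2 V A → A ≤ S := by
    intro A hAH hA
    by_cases hA1 : A = ⊥
    · rw [hA1]; exact bot_le
    have hH1 : H ≠ ⊥ := by
      intro hH
      apply hA1
      rw [hH] at hAH
      exact le_bot_iff.mp hAH
    obtain ⟨k, B, hB, -, hsup⟩ :=
      Cfsg.Agent.S0612.result (p := 2) V H hV hHV hf hS1 hS3 hH1 A hAH hA hA1
    rw [← hsup]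
    refine iSup_le fun i => ?_
    obtain ⟨hBA, hBbo, hBV, hBmin⟩ := hB i
    have hBH : B i ≤ H := hBA.trans hAH
    intro b hb
    have hbH : b ∈ H := hBH hb
    have hbb : b * b = 1 := by
      have h1 : b ^ 2 ∈ Subgroup.centralizer (V : Set G) := hBbo.2.2 b hb
      have h2 : b ^ 2 ∈ H ⊓ Subgroup.centralizer (V : Set G) := ⟨H.pow_mem hbH 2, h1⟩
      rw [hf, Subgroup.mem_bot] at h2
      rw [← pow_two]; exact h2
    refine (hmemS b).mpr ⟨hbH, ?_, fun g hg => ?_⟩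
    · rw [hbb]; exact N3.one_mem
    · have := h G V H hV hHV hf hS1 hS3 (B i) hBH hBbo hBV hBmin g hg b hb
      rw [hN3] at this
      exact this
  have hHS : H ≤ S := by
    have h1 : (⨆ A : {A : Subgroup G // A ≤ H ∧ Cfsg.IsBestOffenderOn 2 V A}, (A : Subgroup G))
        ≤ S := iSup_le fun A => hAS A.1 A.2.1 A.2.2
    exact hS3.le.trans h1
  intro x hx
  exact ((hmemS x).mp (hHS hx)).2.1

end Cfsg.Agent.Lib.Helper62.JL
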