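import Mathlib
import Cfsg.Agent.Lib.Helper72.JMDefs

/-!
S2943 project JM, piece WV (helper62 for helper72): commutator computation in an elementary
abelian normal 2-subgroup `V` with an element `k` of order 3.
-/

set_option autoImplicit false

namespace Cfsg.Agent.Lib.Helper62.JM

open Cfsg.Agent.Lib.Helper72.JM Cfsg.Agent.Lib.Helper72.JL Cfsg.Agent.Lib.Helper72.SC
  Cfsg.Agent.Lib.Helper78.Jc

open scoped commutatorElement

universe u

theorem wv : WvStmt.{u} := by
  intro X _ V Q K P W k hVn hVQ hVc hV2 hQV hQK hPQ hK2 hkK hk3 hkW hu v hv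
  -- the three conjugates `a = v`, `b = k v k⁻¹`, `d = k² v k⁻²`
  have hb : k * v * k⁻¹ ∈ V := hVn.conj_mem v hv k
  have hd : k * (k * v * k⁻¹) * k⁻¹ ∈ V := hVn.conj_mem _ hb k
  have hk3' : k * k * k = 1 := by
    have : k ^ 3 = k * k * k := by rw [pow_succ, pow_two]
    rw [← this]; exact hk3
  have hkd : k * (k * (k * v * k⁻¹) * k⁻¹) * k⁻¹ = v := by
    have e : k * (k * (k * v * k⁻¹) * k⁻¹) * k⁻¹ = (k * k * k) * v * (k * k * k)⁻¹ := by group
    rw [e, hk3']; group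
  generalize hbdef : k * v * k⁻¹ = b at hb hd hkd
  generalize hddef : k * b * k⁻¹ = d at hd hkd
  have hainv : v⁻¹ = v := inv_eq_of_mul_eq_one_left (hV2 v hv)
  have hbinv : b⁻¹ = b := inv_eq_of_mul_eq_one_left (hV2 b hb)
  have hdinv : d⁻¹ = d := inv_eq_of_mul_eq_one_left (hV2 d hd)
  have hc : ⁅k, v⁆ = b * v := by
    rw [commutatorElement_def, hbdef, hainv]
  have hcV : b * v ∈ V := V.mul_mem hb hv
  -- `c = ⁅k, v⁆` lies in `K`
  have hcK : b * v ∈ K := by
    have hvN : v ∈ Subgroup.normalizer (K : Set X) := hQK (hVQ hv)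
    have h1 : v * k⁻¹ * v⁻¹ ∈ K := (Subgroup.mem_normalizer_iff.mp hvN k⁻¹).mp (K.inv_mem hkK)
    have h2 : b * v = k * (v * k⁻¹ * v⁻¹) := by
      rw [← hbdef, hainv]; group
    rw [h2]
    exact K.mul_mem hkK h1
  have hcP : b * v ∈ P := hK2 _ hcK ⟨1, by rw [pow_one, pow_two]; exact hV2 _ hcV⟩
  have hcc : ∀ p ∈ P, (b * v) * p = p * (b * v) := fun p hp => (hQV p (hPQ hp) _ hcV).symm
  have hw1 : ⁅b * v, k⁆ ∈ W := hu _ hcP hcc (hV2 _ hcV)
  -- conjugation by `k` on the three elements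
  have hkc : k * (b * v) * k⁻¹ = d * b := by
    have e : k * (b * v) * k⁻¹ = (k * b * k⁻¹) * (k * v * k⁻¹) := by group
    rw [e, hddef, hbdef]
  have hw1eq : ⁅b * v, k⁆ = v * d := by
    have e : ⁅b * v, k⁆ = (b * v) * (k * (b * v) * k⁻¹)⁻¹ := by
      rw [commutatorElement_def]; group
    rw [e, hkc, mul_inv_rev, hbinv, hdinv]
    calc b * v * (b * d) = (b * v) * b * d := by group
      _ = (v * b) * b * d := by rw [hVc b hb v hv]
      _ = v * (b * b) * d := by group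
      _ = v * d := by rw [hV2 b hb, mul_one]
  rw [hw1eq] at hw1
  have hk1 : k * (v * d) * k⁻¹ = b * v := by
    have e : k * (v * d) * k⁻¹ = (k * v * k⁻¹) * (k * d * k⁻¹) := by group
    rw [e, hbdef, hkd]
  have h3 : k * (k * (v * d) * k⁻¹) * k⁻¹ ∈ W := hkW _ (hkW _ hw1)
  rw [hk1, hkc] at h3
  have hfinal : b * v = (v * d) * (d * b) := by
    calc b * v = v * b := hVc b hb v hv
      _ = v * (d * d) * b := by rw [hV2 d hd, mul_one]
      _ = (v * d) * (d * b) := by group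
  rw [hc, hfinal]
  exact W.mul_mem hw1 h3

end Cfsg.Agent.Lib.Helper62.JM
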