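import Mathlib
import Cfsg.Agent.Lib.Helper72.JMDefs
import Cfsg.Agent.Lib.Helper82.JcOCPC

/-!
S2943 project JM, piece WZ (helper62 for helper72): a four-group `W` with a fixed-point-free `k`
and a nontrivial central involution `z` of `T` in it lies in the normal closure of `Ω₁(Z(T))`.
-/

set_option autoImplicit false

namespace Cfsg.Agent.Lib.Helper62.JM

open Cfsg.Agent.Lib.Helper72.JM Cfsg.Agent.Lib.Helper72.JL Cfsg.Agent.Lib.Helper72.SC
  Cfsg.Agent.Lib.Helper78.Jc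

open scoped commutatorElement

universe u

theorem wz : WzStmt.{u} := by
  intro X _ _ T W k z hW4 hW2 hkW hfpf hzW hz1 hzT hzc
  have hzz : z * z = 1 := hW2 z hzW
  have hzO : z ∈ Cfsg.omegaCenterOf T :=
    Cfsg.Agent.Lib.Helper82.Jc.oc_mem T z hzT (fun x hx => (hzc x hx).symm) hzz
  have hzV : z ∈ VT T := Subgroup.subset_normalClosure hzO
  have hVn : (VT T).Normal := VT_normal T
  have hz'V : k * z * k⁻¹ ∈ VT T := hVn.conj_mem z hzV k
  have hz'W : k * z * k⁻¹ ∈ W := hkW z hzW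
  have hz'1 : k * z * k⁻¹ ≠ 1 := by
    intro h
    apply hz1
    have : z = k⁻¹ * (k * z * k⁻¹) * k := by group
    rw [this, h]; group
  have hz'z : k * z * k⁻¹ ≠ z := fun h => hz1 (hfpf z hzW h)
  -- the subgroup `W ⊓ VT T` of `W` has at least three elements
  have hdvd : Nat.card ↥(W ⊓ VT T) ∣ 4 := hW4 ▸ Subgroup.card_dvd_of_le inf_le_left
  have hmz : z ∈ W ⊓ VT T := ⟨hzW, hzV⟩
  have hmz' : k * z * k⁻¹ ∈ W ⊓ VT T := ⟨hz'W, hz'V⟩
  have hne1 : Nat.card ↥(W ⊓ VT T) ≠ 1 := by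
    intro h
    have hbot : W ⊓ VT T = ⊥ := Subgroup.card_eq_one.mp h
    rw [hbot, Subgroup.mem_bot] at hmz
    exact hz1 hmz
  have hne2 : Nat.card ↥(W ⊓ VT T) ≠ 2 := by
    intro h
    obtain ⟨y, -, hy⟩ := (Nat.card_eq_two_iff' (1 : ↥(W ⊓ VT T))).mp h
    have h1 : (⟨z, hmz⟩ : ↥(W ⊓ VT T)) = y := hy _ (fun h' => hz1 (congrArg Subtype.val h'))
    have h2 : (⟨k * z * k⁻¹, hmz'⟩ : ↥(W ⊓ VT T)) = y :=
      hy _ (fun h' => hz'1 (congrArg Subtype.val h'))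
    exact hz'z (congrArg Subtype.val (h2.trans h1.symm))
  have hcard : Nat.card ↥(W ⊓ VT T) = 4 := by
    have hle : Nat.card ↥(W ⊓ VT T) ≤ 4 := Nat.le_of_dvd (by norm_num) hdvd
    have hpos : 0 < Nat.card ↥(W ⊓ VT T) := Nat.card_pos
    interval_cases h : Nat.card ↥(W ⊓ VT T) <;> simp_all
  have heq : W ⊓ VT T = W :=
    Subgroup.eq_of_le_of_card_ge inf_le_left (by rw [hcard, hW4])
  exact inf_eq_left.mp heq

end Cfsg.Agent.Lib.Helper62.JM
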