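import Mathlib
import Cfsg.Agent.Lib.Helper48.McA

set_option autoImplicit false

namespace Cfsg.Agent.Lib.Helper48.Mc

open Cfsg Cfsg.Agent.Lib.Helper48
open Cfsg.Agent.S2429 (SL Tns)
open Cfsg.Agent.S2433 (Bor)

universe u v

open scoped commutatorElement

theorem comm3_orderOf_conj {N : Type u} [Group N] (g x : N) :
    orderOf (g * x * g⁻¹) = orderOf x := by
  have := orderOf_injective (MulAut.conj g).toMonoidHom (MulAut.conj g).injective x
  simpa only [MulEquiv.coe_toMonoidHom, MulAut.conj_apply] using this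

/-- the commutator subgroup lies in a normal subgroup of index three -/
theorem comm3_le {N : Type u} [Group N] [Finite N] (S : Subgroup N) [S.Normal]
    (hidx : S.index = 3) : commutator N ≤ S := by
  have : Fact (Nat.Prime 3) := ⟨Nat.prime_three⟩
  have hcard : Nat.card (N ⧸ S) = 3 := by rw [← Subgroup.index_eq_card]; exact hidx
  have hcyc : IsCyclic (N ⧸ S) := isCyclic_of_prime_card hcard
  obtain ⟨c, hc⟩ := hcyc.exists_generator
  rw [commutator_eq_closure, Subgroup.closure_le]
  rintro _ ⟨g, h, rfl⟩
  rw [SetLike.mem_coe, ← QuotientGroup.eq_one_iff (N := S)]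
  obtain ⟨i, hi⟩ := Subgroup.mem_zpowers_iff.mp (hc (g : N ⧸ S))
  obtain ⟨j, hj⟩ := Subgroup.mem_zpowers_iff.mp (hc (h : N ⧸ S))
  rw [commutatorElement_def, QuotientGroup.mk_mul, QuotientGroup.mk_mul, QuotientGroup.mk_mul,
    QuotientGroup.mk_inv, QuotientGroup.mk_inv, ← hi, ← hj]
  group

/-- piece COMM3 -/
theorem commutator_index_three {N : Type u} [Group N] [Finite N] (S : Subgroup N) [S.Normal]
    (hS : Nat.card S = 8) (hN : Nat.card N = 24)
    (hinv : ∀ s ∈ S, ∀ t ∈ S, s ^ 2 = 1 → t ^ 2 = 1 → s ≠ 1 → t ≠ 1 → s = t)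
    (hcent : ∀ x : N, (∀ s ∈ S, x * s = s * x) → x ^ 2 = 1) :
    (commutator N).index = 3 := by
  classical
  have h3 : Fact (Nat.Prime 3) := ⟨Nat.prime_three⟩
  have h2 : Fact (Nat.Prime 2) := ⟨Nat.prime_two⟩
  have hidx : S.index = 3 := by
    have := S.card_mul_index
    rw [hS, hN] at this
    omega
  have hDS : commutator N ≤ S := comm3_le S hidx
  suffices hD : commutator N = S by rw [hD]; exact hidx
  by_contra hne
  -- the commutator subgroup has at most four elements
  have hDcard : Nat.card (commutator N) ≤ 4 := by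
    have hdvd : Nat.card (commutator N) ∣ 8 := hS ▸ Subgroup.card_dvd_of_le hDS
    have hne8 : Nat.card (commutator N) ≠ 8 := by
      intro h8
      exact hne (Subgroup.eq_of_le_of_card_ge hDS (by rw [hS, h8]))
    have hle := Nat.le_of_dvd (by norm_num) hdvd
    by_contra hgt
    rw [not_le] at hgt
    interval_cases (Nat.card (commutator N)) <;> omega
  -- an element of order three
  obtain ⟨x, hx⟩ := exists_prime_orderOf_dvd_card' (G := N) 3 (by rw [hN]; norm_num)
  have hx3 : x * x * x = 1 := by
    have := pow_orderOf_eq_one x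
    rw [hx, pow_succ, pow_succ, pow_one] at this
    exact this
  have hxi3 : x⁻¹ * x⁻¹ * x⁻¹ = 1 := by
    have : x⁻¹ * x⁻¹ * x⁻¹ = (x * x * x)⁻¹ := by group
    rw [this, hx3, inv_one]
  have hcube : ∀ y : N, x * (x * (x * y * x⁻¹) * x⁻¹) * x⁻¹ = y := by
    intro y
    have : x * (x * (x * y * x⁻¹) * x⁻¹) * x⁻¹ = (x * x * x) * y * (x⁻¹ * x⁻¹ * x⁻¹) := by group
    rw [this, hx3, hxi3, one_mul, mul_one]
  have hDn : ∀ d ∈ commutator N, x * d * x⁻¹ ∈ commutator N := fun d hd =>
    Subgroup.Normal.conj_mem inferInstance d hd x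
  -- Step A: `x` centralizes the commutator subgroup
  have hA : ∀ d ∈ commutator N, x * d * x⁻¹ = d := by
    intro d hd
    by_contra h01
    have hd1 : x * d * x⁻¹ ∈ commutator N := hDn d hd
    have hd2 : x * (x * d * x⁻¹) * x⁻¹ ∈ commutator N := hDn _ hd1
    have h12 : x * d * x⁻¹ ≠ x * (x * d * x⁻¹) * x⁻¹ := by
      intro h
      apply h01
      exact (mul_left_cancel (mul_right_cancel h)).symm
    have h20 : x * (x * d * x⁻¹) * x⁻¹ ≠ d := by
      intro h
      apply h01
      have := hcube d
      rw [h] at this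
      exact this
    have hd0 : d ≠ 1 := by
      rintro rfl
      apply h01
      group
    have hd10 : x * d * x⁻¹ ≠ 1 := by
      intro h
      apply hd0
      have := hcube d
      rw [h] at this
      rw [← this]; group
    have hd20 : x * (x * d * x⁻¹) * x⁻¹ ≠ 1 := by
      intro h
      apply hd0
      have := hcube d
      rw [h] at this
      rw [← this]; group
    -- the four elements exhaust the commutator subgroup
    have hF : ({1, d, x * d * x⁻¹, x * (x * d * x⁻¹) * x⁻¹} : Finset N).card = 4 := by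
      rw [Finset.card_insert_of_notMem, Finset.card_insert_of_notMem, Finset.card_pair h12]
      · simp only [Finset.mem_insert, Finset.mem_singleton, not_or]
        exact ⟨fun h => h01 h.symm, fun h => h20 h.symm⟩
      · simp only [Finset.mem_insert, Finset.mem_singleton, not_or]
        exact ⟨fun h => hd0 h.symm, fun h => hd10 h.symm, fun h => hd20 h.symm⟩
    have hsub : (↑({1, d, x * d * x⁻¹, x * (x * d * x⁻¹) * x⁻¹} : Finset N) : Set N) ⊆
        (commutator N : Set N) := by
      intro y hy
      simp only [Finset.coe_insert, Finset.coe_singleton, Set.mem_insert_iff,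
        Set.mem_singleton_iff] at hy
      rcases hy with rfl | rfl | rfl | rfl
      · exact one_mem _
      · exact hd
      · exact hd1
      · exact hd2
    have hncard : (commutator N : Set N).ncard = Nat.card (commutator N) := rfl
    have heq : (↑({1, d, x * d * x⁻¹, x * (x * d * x⁻¹) * x⁻¹} : Finset N) : Set N) =
        (commutator N : Set N) := by
      apply Set.eq_of_subset_of_ncard_le hsub _ (Set.toFinite _)
      rw [Set.ncard_coe_finset, hF, hncard]
      exact hDcard
    have hcard4 : Nat.card (commutator N) = 4 := by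
      rw [← hncard, ← heq, Set.ncard_coe_finset, hF]
    obtain ⟨t, ht⟩ := exists_prime_orderOf_dvd_card' (G := commutator N) 2 (by rw [hcard4]; norm_num)
    have ht2 : orderOf (t : N) = 2 := by rw [Subgroup.orderOf_coe]; exact ht
    have htmem : (t : N) ∈ (↑({1, d, x * d * x⁻¹, x * (x * d * x⁻¹) * x⁻¹} : Finset N) : Set N) := by
      rw [heq]; exact t.2
    simp only [Finset.coe_insert, Finset.coe_singleton, Set.mem_insert_iff,
      Set.mem_singleton_iff] at htmem
    have hord : orderOf d = 2 := by
      rcases htmem with h | h | h | h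
      · rw [h] at ht2; simp at ht2
      · rw [← h]; exact ht2
      · rw [← comm3_orderOf_conj x d, ← h]; exact ht2
      · rw [← comm3_orderOf_conj x d, ← comm3_orderOf_conj x (x * d * x⁻¹), ← h]; exact ht2
    have hdsq : d ^ 2 = 1 := by rw [← hord]; exact pow_orderOf_eq_one d
    have hd1sq : (x * d * x⁻¹) ^ 2 = 1 := by
      rw [← hord, ← comm3_orderOf_conj x d]; exact pow_orderOf_eq_one _
    exact h01 (hinv d (hDS hd) _ (hDS hd1) hdsq hd1sq hd0 hd10).symm
  -- Step B: `x` centralizes `S`
  have hB : ∀ s ∈ S, x * s = s * x := by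
    intro s hs
    have hn : s⁻¹ * (x * s * x⁻¹) ∈ commutator N := by
      have h1 : ⁅s⁻¹, x⁆ ∈ commutator N := by
        rw [commutator_def]
        exact Subgroup.commutator_mem_commutator (Subgroup.mem_top _) (Subgroup.mem_top _)
      have h2 : ⁅s⁻¹, x⁆ = s⁻¹ * (x * s * x⁻¹) := by
        rw [commutatorElement_def, inv_inv]; group
      rwa [h2] at h1
    have hnfix := hA _ hn
    have hxs : x * s * x⁻¹ = s * (s⁻¹ * (x * s * x⁻¹)) := by group
    obtain ⟨n, hn_def⟩ : ∃ n, n = s⁻¹ * (x * s * x⁻¹) := ⟨_, rfl⟩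
    rw [← hn_def] at hn hnfix hxs
    have hconj : ∀ a b : N, x * (a * b) * x⁻¹ = (x * a * x⁻¹) * (x * b * x⁻¹) := by
      intro a b; group
    have c1 : x * (s * n) * x⁻¹ = s * n * n := by rw [hconj, hxs, hnfix]
    have c2 : x * (s * n * n) * x⁻¹ = s * n * n * n := by rw [hconj (s * n) n, c1, hnfix]
    have h3n : s * n * n * n = s := by
      have h := hcube s
      rw [hxs, c1, c2] at h
      exact h
    have hn3 : n * n * n = 1 := by
      have : s * (n * n * n) = s * 1 := by
        rw [mul_one, ← mul_assoc, ← mul_assoc]; exact h3n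
      exact mul_left_cancel this
    have hn3' : n ^ 3 = 1 := by
      rw [pow_succ, pow_succ, pow_one]; exact hn3
    have hn8 : n ^ 8 = 1 := by
      have h := pow_card_eq_one' (G := S) (x := ⟨n, hDS hn⟩)
      rw [hS] at h
      have h' := congrArg Subtype.val h
      simpa using h'
    have hn1 : n = 1 := by
      have h9 : n ^ 9 = 1 := by
        rw [show 9 = 3 * 3 from rfl, pow_mul, hn3', one_pow]
      have : n ^ 9 = n ^ 8 * n := pow_succ n 8
      rw [h9, hn8, one_mul] at this
      exact this.symm
    rw [hn1, mul_one] at hxs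
    have : x * s = (x * s * x⁻¹) * x := by group
    rw [this, hxs]
  have hx2 : x ^ 2 = 1 := hcent x hB
  have := orderOf_dvd_of_pow_eq_one hx2
  rw [hx] at this
  omega

end Cfsg.Agent.Lib.Helper48.Mc
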