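import Mathlib
import Cfsg.Agent.Lib.Helper48.McA

set_option autoImplicit false

namespace Cfsg.Agent.Lib.Helper48.Mc

open Cfsg Cfsg.Agent.Lib.Helper48
open Cfsg.Agent.S2429 (SL Tns)
open Cfsg.Agent.S2433 (Bor)

universe u v

open scoped Pointwise

/-- piece NCONJ -/
theorem normalizer_sylow_equiv {G : Type u} [Group G] [Finite G] (ℓ : ℕ) [Fact ℓ.Prime]
    (S S' : Sylow ℓ G) :
    Nonempty (↥(Subgroup.normalizer ((S : Subgroup G) : Set G)) ≃*
      ↥(Subgroup.normalizer ((S' : Subgroup G) : Set G))) := by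
  obtain ⟨g, hg⟩ := MulAction.exists_smul_eq G S S'
  have h1 : ((S : Subgroup G)).map (MulAut.conj g).toMonoidHom = (S' : Subgroup G) := by
    rw [← hg, Sylow.smul_def, Sylow.pointwise_smul_def, Subgroup.pointwise_smul_def]
    rfl
  have h2 : (Subgroup.normalizer ((S : Subgroup G) : Set G)).map (MulAut.conj g).toMonoidHom =
      Subgroup.normalizer ((S' : Subgroup G) : Set G) := by
    rw [Subgroup.map_equiv_normalizer_eq, h1]
  exact ⟨((MulAut.conj g).subgroupMap _).trans (MulEquiv.subgroupCongr h2)⟩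

end Cfsg.Agent.Lib.Helper48.Mc
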