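import Mathlib
import Cfsg.Agent.Lib.Helper48.McA

set_option autoImplicit false

namespace Cfsg.Agent.Lib.Helper48.Mc

open Cfsg Cfsg.Agent.Lib.Helper48
open Cfsg.Agent.S2429 (SL Tns)
open Cfsg.Agent.S2433 (Bor)

universe u v

/-- piece NTRIV -/
theorem normalizer_equiv_of_not_dvd {G : Type u} [Group G] [Finite G] (ℓ : ℕ) [Fact ℓ.Prime]
    (S : Sylow ℓ G) (h : ¬ ℓ ∣ Nat.card G) :
    Nonempty (↥(Subgroup.normalizer ((S : Subgroup G) : Set G)) ≃* G) := by
  have hcard : Nat.card (S : Subgroup G) = 1 := by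
    rw [Sylow.card_eq_multiplicity, Nat.factorization_eq_zero_of_not_dvd h, pow_zero]
  have hbot : (S : Subgroup G) = ⊥ := Subgroup.eq_bot_of_card_eq _ hcard
  have htop : Subgroup.normalizer ((S : Subgroup G) : Set G) = ⊤ := by
    rw [hbot]
    exact Subgroup.normalizer_eq_top ⊥
  exact ⟨(MulEquiv.subgroupCongr htop).trans Subgroup.topEquiv⟩

end Cfsg.Agent.Lib.Helper48.Mc
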