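import Mathlib
import Cfsg.Agent.Lib.Helper48.McA

set_option autoImplicit false

namespace Cfsg.Agent.Lib.Helper48.Mc

open Cfsg Cfsg.Agent.Lib.Helper48
open Cfsg.Agent.S2429 (SL Tns)
open Cfsg.Agent.S2433 (Bor)

universe u v

/-- piece ORD24 -/
theorem mk_two_of_card_24 {N : Type u} [Group N] [Finite N] (h24 : Nat.card N = 24)
    (hcomm : (commutator N).index = 3) : mk N 2 = 4 := by
  classical
  have := Fintype.ofFinite (IrrCharacter N)
  have hsum : ∑ χ : IrrCharacter N, (charDegree (χ : N → ℂ)) ^ 2 = 24 := by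
    rw [Helper83.sum_charDegree_sq, h24]
  have hpos : ∀ χ : IrrCharacter N, 0 < charDegree (χ : N → ℂ) := fun χ =>
    (Helper83.irr_degree χ.2).1
  have hle : ∀ χ : IrrCharacter N, charDegree (χ : N → ℂ) ≤ 4 := by
    intro χ
    have h1 : (charDegree (χ : N → ℂ)) ^ 2 ≤ ∑ χ : IrrCharacter N, (charDegree (χ : N → ℂ)) ^ 2 :=
      Finset.single_le_sum (f := fun χ : IrrCharacter N => (charDegree (χ : N → ℂ)) ^ 2)
        (fun _ _ => Nat.zero_le _) (Finset.mem_univ χ)
    rw [hsum] at h1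
    nlinarith
  -- pointwise identities
  have hpt1 : ∀ χ : IrrCharacter N, (charDegree (χ : N → ℂ)) ^ 2 =
      (if charDegree (χ : N → ℂ) = 1 then 1 else 0) +
      4 * (if charDegree (χ : N → ℂ) = 2 then 1 else 0) +
      9 * (if charDegree (χ : N → ℂ) = 3 then 1 else 0) +
      16 * (if charDegree (χ : N → ℂ) = 4 then 1 else 0) := by
    intro χ
    have h1 := hpos χ
    have h2 := hle χ
    interval_cases (charDegree (χ : N → ℂ)) <;> simp
  have hpt2 : ∀ χ : IrrCharacter N, (if ¬ 2 ∣ charDegree (χ : N → ℂ) then 1 else 0) =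
      (if charDegree (χ : N → ℂ) = 1 then 1 else 0) +
      (if charDegree (χ : N → ℂ) = 3 then 1 else 0) := by
    intro χ
    have h1 := hpos χ
    have h2 := hle χ
    interval_cases (charDegree (χ : N → ℂ)) <;> simp
  -- counts
  have hc1 : ∑ χ : IrrCharacter N, (if charDegree (χ : N → ℂ) = 1 then 1 else 0) = 3 := by
    rw [← hcomm, ← Helper83.card_linear', Nat.card_eq_fintype_card, Fintype.card_subtype,
      Finset.card_filter]
  have hmk : mk N 2 = ∑ χ : IrrCharacter N, (if ¬ 2 ∣ charDegree (χ : N → ℂ) then 1 else 0) := by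
    unfold mk
    rw [Nat.card_eq_fintype_card, Fintype.card_subtype, Finset.card_filter]
  have e1 : ∑ χ : IrrCharacter N, (charDegree (χ : N → ℂ)) ^ 2 =
      ∑ χ : IrrCharacter N, (if charDegree (χ : N → ℂ) = 1 then 1 else 0) +
      4 * ∑ χ : IrrCharacter N, (if charDegree (χ : N → ℂ) = 2 then 1 else 0) +
      9 * ∑ χ : IrrCharacter N, (if charDegree (χ : N → ℂ) = 3 then 1 else 0) +
      16 * ∑ χ : IrrCharacter N, (if charDegree (χ : N → ℂ) = 4 then 1 else 0) := by
    rw [Finset.sum_congr rfl (fun χ _ => hpt1 χ)]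
    simp only [Finset.sum_add_distrib, Finset.mul_sum]
  have e2 : ∑ χ : IrrCharacter N, (if ¬ 2 ∣ charDegree (χ : N → ℂ) then 1 else 0) =
      ∑ χ : IrrCharacter N, (if charDegree (χ : N → ℂ) = 1 then 1 else 0) +
      ∑ χ : IrrCharacter N, (if charDegree (χ : N → ℂ) = 3 then 1 else 0) := by
    rw [Finset.sum_congr rfl (fun χ _ => hpt2 χ)]
    simp only [Finset.sum_add_distrib]
  rw [hmk, e2]
  rw [hsum] at e1
  omega

end Cfsg.Agent.Lib.Helper48.Mc
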