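import Mathlib
import Cfsg.Agent.Lib.Helper48.McA

set_option autoImplicit false

namespace Cfsg.Agent.Lib.Helper48.Mc

open Cfsg Cfsg.Agent.Lib.Helper48
open Cfsg.Agent.S2429 (SL Tns)
open Cfsg.Agent.S2433 (Bor)

universe u v

/-- piece PGRP -/
theorem mk_pgroup {H : Type u} [Group H] [Finite H] (p : ℕ) [Fact p.Prime] (hH : IsPGroup p H) :
    mk H p = (commutator H).index := by
  have hp : p.Prime := Fact.out
  obtain ⟨k, hk⟩ := IsPGroup.iff_card.mp hH
  rw [← Helper83.card_linear']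
  unfold mk
  apply Nat.card_congr
  refine Equiv.subtypeEquivRight (fun χ => ?_)
  have hdvd : charDegree (χ : H → ℂ) ∣ p ^ k := hk ▸ Helper83.irr_degree_dvd_card χ
  constructor
  · intro hnd
    obtain ⟨j, -, hj⟩ := (Nat.dvd_prime_pow hp).mp hdvd
    rcases Nat.eq_zero_or_pos j with h0 | h0
    · rw [hj, h0, pow_zero]
    · exfalso
      apply hnd
      rw [hj]
      exact dvd_pow_self p h0.ne'
  · intro h1
    rw [h1]
    exact hp.one_lt.ne' ∘ Nat.dvd_one.mp

end Cfsg.Agent.Lib.Helper48.Mc
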