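import Mathlib
import Cfsg.Agent.Lib.Helper48.McA

set_option autoImplicit false

namespace Cfsg.Agent.Lib.Helper48.Mc

open Cfsg Cfsg.Agent.Lib.Helper48
open Cfsg.Agent.S2429 (SL Tns)
open Cfsg.Agent.S2433 (Bor)

universe u v

open scoped commutatorElement

theorem qcomm_inv_a {n : ℕ} (i : ZMod (2 * n)) :
    (QuaternionGroup.a i : QuaternionGroup n)⁻¹ = QuaternionGroup.a (-i) := rfl

theorem qcomm_inv_xa {n : ℕ} (i : ZMod (2 * n)) :
    (QuaternionGroup.xa i : QuaternionGroup n)⁻¹ = QuaternionGroup.xa ((n : ZMod (2 * n)) + i) := rfl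

theorem qcomm_nn (n : ℕ) : ((n : ℕ) : ZMod (2 * n)) + n = 0 := by
  rw [← two_mul]
  exact_mod_cast ZMod.natCast_self (2 * n)

/-- the parity map -/
noncomputable def qcommPar (n : ℕ) : ZMod (2 * n) →+* ZMod 2 :=
  ZMod.castHom (dvd_mul_right 2 n) (ZMod 2)

theorem qcomm_par_two (n : ℕ) (i : ZMod (2 * n)) : qcommPar n (2 * i) = 0 := by
  rw [map_mul]
  have : qcommPar n 2 = 0 := by
    rw [map_ofNat]
    rfl
  rw [this, zero_mul]

/-- the subgroup `{a i | i even}` -/
def qcommK (n : ℕ) : Subgroup (QuaternionGroup n) where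
  carrier := {x | ∃ i : ZMod (2 * n), qcommPar n i = 0 ∧ x = QuaternionGroup.a i}
  mul_mem' := by
    rintro _ _ ⟨i, hi, rfl⟩ ⟨j, hj, rfl⟩
    exact ⟨i + j, by rw [map_add, hi, hj, add_zero], QuaternionGroup.a_mul_a i j⟩
  one_mem' := ⟨0, map_zero _, QuaternionGroup.one_def⟩
  inv_mem' := by
    rintro _ ⟨i, hi, rfl⟩
    exact ⟨-i, by rw [map_neg, hi, neg_zero], qcomm_inv_a i⟩

theorem qcomm_mem_K (n : ℕ) (i : ZMod (2 * n)) :
    (QuaternionGroup.a i : QuaternionGroup n) ∈ qcommK n ↔ qcommPar n i = 0 := by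
  constructor
  · rintro ⟨j, hj, h⟩
    rw [QuaternionGroup.a.injEq] at h
    rw [h]; exact hj
  · intro h
    exact ⟨i, h, rfl⟩

theorem qcomm_xa_not_mem_K (n : ℕ) (i : ZMod (2 * n)) :
    (QuaternionGroup.xa i : QuaternionGroup n) ∉ qcommK n := by
  rintro ⟨j, -, h⟩
  cases h

theorem qcomm_comm_a_xa (n : ℕ) (i j : ZMod (2 * n)) :
    ⁅(QuaternionGroup.a i : QuaternionGroup n), QuaternionGroup.xa j⁆ =
      QuaternionGroup.a (2 * i) := by
  simp only [commutatorElement_def, qcomm_inv_a, qcomm_inv_xa, QuaternionGroup.a_mul_a,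
    QuaternionGroup.a_mul_xa, QuaternionGroup.xa_mul_a, QuaternionGroup.xa_mul_xa]
  congr 1
  linear_combination qcomm_nn n

theorem qcomm_le_K (n : ℕ) : commutator (QuaternionGroup n) ≤ qcommK n := by
  rw [commutator_eq_closure, Subgroup.closure_le]
  rintro x ⟨g, h, rfl⟩
  cases g with
  | a i =>
    cases h with
    | a j =>
      refine ⟨0, map_zero _, ?_⟩
      simp only [commutatorElement_def, qcomm_inv_a, QuaternionGroup.a_mul_a]
      congr 1
      ring
    | xa j =>
      rw [qcomm_comm_a_xa]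
      exact (qcomm_mem_K n _).mpr (qcomm_par_two n i)
  | xa i =>
    cases h with
    | a j =>
      refine ⟨2 * (-j), qcomm_par_two n _, ?_⟩
      simp only [commutatorElement_def, qcomm_inv_a, qcomm_inv_xa, QuaternionGroup.a_mul_a,
        QuaternionGroup.a_mul_xa, QuaternionGroup.xa_mul_a, QuaternionGroup.xa_mul_xa]
      congr 1
      linear_combination qcomm_nn n
    | xa j =>
      refine ⟨2 * (j - i), qcomm_par_two n _, ?_⟩
      simp only [commutatorElement_def, qcomm_inv_a, qcomm_inv_xa, QuaternionGroup.a_mul_a,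
        QuaternionGroup.a_mul_xa, QuaternionGroup.xa_mul_a, QuaternionGroup.xa_mul_xa]
      congr 1
      linear_combination qcomm_nn n

theorem qcomm_K_le (n : ℕ) (hn0 : n ≠ 0) : qcommK n ≤ commutator (QuaternionGroup n) := by
  have : NeZero (2 * n) := ⟨by omega⟩
  rintro x ⟨i, hi, rfl⟩
  have h1 : qcommPar n i = ((i.val : ℕ) : ZMod 2) := by
    conv_lhs => rw [← ZMod.natCast_zmod_val i]
    exact map_natCast _ _
  rw [h1, ZMod.natCast_eq_zero_iff] at hi
  obtain ⟨m, hm⟩ := hi
  have h2 : i = 2 * (m : ZMod (2 * n)) := by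
    conv_lhs => rw [← ZMod.natCast_zmod_val i, hm]
    push_cast
    ring
  rw [h2, ← qcomm_comm_a_xa n (m : ZMod (2 * n)) 0, commutator_def]
  exact Subgroup.commutator_mem_commutator (Subgroup.mem_top _) (Subgroup.mem_top _)

/-- the invariant separating the cosets of `qcommK n` -/
noncomputable def qcommF (n : ℕ) : QuaternionGroup n → Bool × ZMod 2
  | QuaternionGroup.a i => (false, qcommPar n i)
  | QuaternionGroup.xa i => (true, qcommPar n i)

theorem qcomm_F_iff (n : ℕ) (x y : QuaternionGroup n) :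
    x⁻¹ * y ∈ qcommK n ↔ qcommF n x = qcommF n y := by
  have hpn : qcommPar n (n : ZMod (2 * n)) + qcommPar n (n : ZMod (2 * n)) = 0 := by
    rw [← map_add, qcomm_nn, map_zero]
  cases x with
  | a i =>
    cases y with
    | a j =>
      rw [qcomm_inv_a, QuaternionGroup.a_mul_a, qcomm_mem_K, map_add, map_neg]
      simp only [qcommF, Prod.mk.injEq, true_and]
      constructor
      · intro h
        linear_combination -h
      · intro h
        linear_combination -h
    | xa j =>
      rw [qcomm_inv_a, QuaternionGroup.a_mul_xa]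
      simp only [qcommF, Prod.mk.injEq]
      constructor
      · intro h; exact absurd h (qcomm_xa_not_mem_K n _)
      · rintro ⟨h, -⟩; cases h
  | xa i =>
    cases y with
    | a j =>
      rw [qcomm_inv_xa, QuaternionGroup.xa_mul_a]
      simp only [qcommF, Prod.mk.injEq]
      constructor
      · intro h; exact absurd h (qcomm_xa_not_mem_K n _)
      · rintro ⟨h, -⟩; cases h
    | xa j =>
      rw [qcomm_inv_xa, QuaternionGroup.xa_mul_xa, qcomm_mem_K]
      simp only [qcommF, Prod.mk.injEq, true_and, map_add, map_sub]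
      constructor
      · intro h
        linear_combination -h
      · intro h
        linear_combination -h

/-- piece QCOMM -/
theorem quaternion_commutator_index (n : ℕ) (hn0 : n ≠ 0) :
    (commutator (QuaternionGroup n)).index = 4 := by
  have hK : commutator (QuaternionGroup n) = qcommK n :=
    le_antisymm (qcomm_le_K n) (qcomm_K_le n hn0)
  rw [hK]
  let f : (QuaternionGroup n ⧸ qcommK n) → Bool × ZMod 2 :=
    Quotient.lift (qcommF n)
      (fun a b hab => (qcomm_F_iff n a b).mp (QuotientGroup.leftRel_apply.mp hab))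
  have hfbij : Function.Bijective f := by
    constructor
    · intro x y
      refine Quotient.inductionOn₂ x y ?_
      intro a b hab
      have : qcommF n a = qcommF n b := hab
      exact Quotient.sound (QuotientGroup.leftRel_apply.mpr ((qcomm_F_iff n a b).mpr this))
    · rintro ⟨b, z⟩
      obtain ⟨i, hi⟩ := ZMod.ringHom_surjective (qcommPar n) z
      cases b with
      | false => exact ⟨Quotient.mk _ (QuaternionGroup.a i), by show qcommF n _ = _; simp [qcommF, hi]⟩
      | true => exact ⟨Quotient.mk _ (QuaternionGroup.xa i), by show qcommF n _ = _; simp [qcommF, hi]⟩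
  have hcard : Nat.card (QuaternionGroup n ⧸ qcommK n) = 4 := by
    rw [Nat.card_congr (Equiv.ofBijective f hfbij), Nat.card_prod]
    simp
  exact hcard

end Cfsg.Agent.Lib.Helper48.Mc
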