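import Mathlib
import Cfsg.Agent.Lib.Helper11.NseBase

set_option autoImplicit false

/-! # S3431 piece NUM4 (helper62): the arithmetic of `nse(A₄) = {1, 3, 8}` -/

namespace Cfsg.Agent.Lib.Helper62.Nse4

private theorem dsum_eq (s : ℕ → ℕ) (m : ℕ) (l : List ℕ) (h : Nat.divisors m = l.toFinset)
    (hl : l.Nodup) : ∑ d ∈ m.divisors, s d = (l.map s).sum := by
  rw [h, List.sum_toFinset _ hl]

private theorem t4 : Nat.totient 4 = 2 := by decide
private theorem t6 : Nat.totient 6 = 2 := by decide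
private theorem t8 : Nat.totient 8 = 4 := by decide
private theorem t9 : Nat.totient 9 = 6 := by decide
private theorem t27 : Nat.totient 27 = 18 := by decide

/-- NUM4: the arithmetic constraints of `nse(A₄)` force `N = 12` and `s 3 = 8`. -/
theorem nse_num4 (N : ℕ) (s : ℕ → ℕ) (hN0 : 0 < N)
    (h1 : s 1 = 1)
    (hphi : ∀ m, Nat.totient m ∣ s m)
    (hF : ∀ m, m ∣ N → m ∣ ∑ d ∈ m.divisors, s d)
    (hsum : N = ∑ d ∈ N.divisors, s d)
    (hdiv : ∀ m d, s m ≠ 0 → d ∣ m → s d ≠ 0)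
    (hord : ∀ m, s m ≠ 0 → m ∣ N)
    (hp : ∀ p, p.Prime → p ∣ N → s p ≠ 0)
    (hV : ∀ m, s m = 0 ∨ s m = 1 ∨ s m = 3 ∨ s m = 8)
    (h3 : ∃ m, s m = 3) (h8 : ∃ m, s m = 8) :
    N = 12 ∧ s 3 = 8 := by
  have hdiv0 : ∀ d m, s d = 0 → d ∣ m → s m = 0 := by
    intro d m hd hdm
    by_contra h
    exact hdiv m d h hdm hd
  have heven : ∀ m, 3 ≤ m → 2 ∣ s m := fun m hm =>
    (Nat.totient_even (by omega)).two_dvd.trans (hphi m)
  have hs0 : s 0 = 0 := by
    have h := hphi 0
    rw [Nat.totient_zero] at h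
    exact zero_dvd_iff.mp h
  have h2 : s 2 = 3 := by
    obtain ⟨m, hm⟩ := h3
    rcases Nat.lt_or_ge m 3 with h | h
    · interval_cases m
      · omega
      · omega
      · exact hm
    · have := heven m h
      omega
  have hN2 : 2 ∣ N := hord 2 (by omega)
  have hprime : ∀ p, p.Prime → p ∣ N → (p = 2) ∨ (p = 3 ∧ s p = 8) := by
    intro p hpp hpN
    have hne := hp p hpp hpN
    have hF1 := hF p hpN
    rw [Nat.Prime.sum_divisors hpp, h1] at hF1
    rcases hV p with h | h | h | h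
    · exact absurd h hne
    · left
      rw [h] at hF1
      exact (Nat.prime_dvd_prime_iff_eq hpp Nat.prime_two).mp hF1
    · left
      rw [h] at hF1
      have h4 : p ∣ 2 ^ 2 := hF1
      exact (Nat.prime_dvd_prime_iff_eq hpp Nat.prime_two).mp (hpp.dvd_of_dvd_pow h4)
    · right
      rw [h] at hF1
      have h9 : p ∣ 3 ^ 2 := hF1
      exact ⟨(Nat.prime_dvd_prime_iff_eq hpp Nat.prime_three).mp (hpp.dvd_of_dvd_pow h9), h⟩
  have hpr : ∀ p, p.Prime → p ∣ N → p = 2 ∨ p = 3 ∨ p = 5 ∨ p = 7 := by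
    intro p hpp hpN
    rcases hprime p hpp hpN with h | ⟨h, _⟩
    · exact Or.inl h
    · exact Or.inr (Or.inl h)
  have hs3 : 3 ∣ N → s 3 = 8 := by
    intro h
    rcases hprime 3 Nat.prime_three h with h' | ⟨_, h'⟩
    · omega
    · exact h'
  have hN12 : 12 ≤ N := by
    obtain ⟨a, ha⟩ := h8
    have hsub : ({1, 2, a} : Finset ℕ) ⊆ N.divisors := by
      intro x hx
      simp only [Finset.mem_insert, Finset.mem_singleton] at hx
      rw [Nat.mem_divisors]
      refine ⟨?_, hN0.ne'⟩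
      rcases hx with rfl | rfl | rfl <;> apply hord <;> omega
    have hle := Finset.sum_le_sum_of_subset (f := s) hsub
    rw [← hsum] at hle
    have n1 : (1 : ℕ) ∉ ({2, a} : Finset ℕ) := by
      simp only [Finset.mem_insert, Finset.mem_singleton, not_or]
      refine ⟨by omega, ?_⟩
      intro e; subst e; omega
    have n2 : (2 : ℕ) ∉ ({a} : Finset ℕ) := by
      simp only [Finset.mem_singleton]
      intro e; subst e; omega
    rw [Finset.sum_insert n1, Finset.sum_insert n2, Finset.sum_singleton] at hle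
    omega
  have p4 : 2 ∣ s 4 := t4 ▸ hphi 4
  have p6 : 2 ∣ s 6 := t6 ▸ hphi 6
  have p8 : 4 ∣ s 8 := t8 ▸ hphi 8
  have p9 : 6 ∣ s 9 := t9 ▸ hphi 9
  have p27 : 18 ∣ s 27 := t27 ▸ hphi 27
  have a8 : ¬ 2 ^ (2 + 1) ∣ N := by
    intro h
    have h' : 8 ∣ N := h
    have e := dsum_eq s 8 [1, 2, 4, 8] (by decide) (by decide)
    simp only [List.map_cons, List.map_nil, List.sum_cons, List.sum_nil] at e
    have hF' := hF 8 h'
    rw [e] at hF'
    have := hV 4
    have := hV 8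
    omega
  have s9 : s 9 = 0 := by
    have := hV 9
    omega
  have a9 : ¬ 3 ^ (1 + 1) ∣ N := by
    intro h
    have h' : 9 ∣ N := h
    have h18 : 18 ∣ N :=
      Nat.Coprime.mul_dvd_of_dvd_of_dvd (by norm_num : Nat.Coprime 2 9) hN2 h'
    have s3 := hs3 (Dvd.dvd.trans (by norm_num) h')
    have s18 : s 18 = 0 := hdiv0 9 18 s9 (by norm_num)
    have e := dsum_eq s 18 [1, 2, 3, 6, 9, 18] (by decide) (by decide)
    simp only [List.map_cons, List.map_nil, List.sum_cons, List.sum_nil] at e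
    have hF' := hF 18 h18
    rw [e] at hF'
    have := hV 6
    omega
  have a5 : ¬ 5 ^ (0 + 1) ∣ N := by
    intro h
    have h' : 5 ∣ N := by simpa using h
    rcases hprime 5 (by norm_num) h' with h'' | ⟨h'', _⟩ <;> omega
  have a7 : ¬ 7 ^ (0 + 1) ∣ N := by
    intro h
    have h' : 7 ∣ N := by simpa using h
    rcases hprime 7 (by norm_num) h' with h'' | ⟨h'', _⟩ <;> omega
  have hd := Cfsg.Agent.Lib.Helper11.NseBase.dvd_of_prime_bounds N hN0 2 1 0 0 hpr a8 a9 a5 a7
  have hle := Nat.le_of_dvd (by norm_num) hd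
  norm_num at hle
  have hN : N = 12 := by omega
  refine ⟨hN, hs3 ?_⟩
  rw [hN]; norm_num

end Cfsg.Agent.Lib.Helper62.Nse4
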