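import Mathlib

set_option autoImplicit false

/-! # S3431 piece NUM6 (helper62): the arithmetic of `nse(A₆) = {1, 45, 80, 90, 144}` -/

namespace Cfsg.Agent.Lib.Helper62.Nse6

private theorem dsum_eq (s : ℕ → ℕ) (m : ℕ) (l : List ℕ) (h : Nat.divisors m = l.toFinset)
    (hl : l.Nodup) : ∑ d ∈ m.divisors, s d = (l.map s).sum := by
  rw [h, List.sum_toFinset _ hl]

/-- split off a prime power -/
private theorem split_prime (p : ℕ) (hp : p.Prime) (N : ℕ) (hN : 0 < N) (a : ℕ)
    (ha : ¬ p ^ (a + 1) ∣ N) : ∃ i M, i ≤ a ∧ N = p ^ i * M ∧ ¬ p ∣ M ∧ 0 < M := by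
  obtain ⟨i, M, hM, hNM⟩ := Nat.exists_eq_pow_mul_and_not_dvd hN.ne' p hp.ne_one
  refine ⟨i, M, ?_, hNM, hM, ?_⟩
  · by_contra hia
    push Not at hia
    apply ha
    rw [hNM]
    exact Dvd.dvd.mul_right (pow_dvd_pow p hia) M
  · rcases Nat.eq_zero_or_pos M with h | h
    · subst h
      rw [mul_zero] at hNM
      omega
    · exact h

private theorem dvd_of_bounds (N : ℕ) (hN : 0 < N)
    (hpr : ∀ p, p.Prime → p ∣ N → p = 2 ∨ p = 3 ∨ p = 5 ∨ p = 7) (a b c d : ℕ)
    (h2 : ¬ 2 ^ (a + 1) ∣ N) (h3 : ¬ 3 ^ (b + 1) ∣ N) (h5 : ¬ 5 ^ (c + 1) ∣ N)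
    (h7 : ¬ 7 ^ (d + 1) ∣ N) : N ∣ 2 ^ a * 3 ^ b * 5 ^ c * 7 ^ d := by
  obtain ⟨i, M₁, hi, e1, hM1, hM1pos⟩ := split_prime 2 Nat.prime_two N hN a h2
  have d1 : M₁ ∣ N := by rw [e1]; exact Dvd.intro_left _ rfl
  have h3' : ¬ 3 ^ (b + 1) ∣ M₁ := fun h => h3 (h.trans d1)
  obtain ⟨j, M₂, hj, e2, hM2, hM2pos⟩ := split_prime 3 Nat.prime_three M₁ hM1pos b h3'
  have d2 : M₂ ∣ M₁ := by rw [e2]; exact Dvd.intro_left _ rfl
  have h5' : ¬ 5 ^ (c + 1) ∣ M₂ := fun h => h5 ((h.trans d2).trans d1)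
  obtain ⟨k, M₃, hk, e3, hM3, hM3pos⟩ := split_prime 5 (by norm_num) M₂ hM2pos c h5'
  have d3 : M₃ ∣ M₂ := by rw [e3]; exact Dvd.intro_left _ rfl
  have h7' : ¬ 7 ^ (d + 1) ∣ M₃ := fun h => h7 (((h.trans d3).trans d2).trans d1)
  obtain ⟨l, M₄, hl, e4, hM4, hM4pos⟩ := split_prime 7 (by norm_num) M₃ hM3pos d h7'
  have d4 : M₄ ∣ M₃ := by rw [e4]; exact Dvd.intro_left _ rfl
  have hM4one : M₄ = 1 := by
    by_contra hne
    obtain ⟨p, hp, hpd⟩ := Nat.exists_prime_and_dvd hne
    have hpN : p ∣ N := (((hpd.trans d4).trans d3).trans d2).trans d1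
    rcases hpr p hp hpN with rfl | rfl | rfl | rfl
    · exact hM1 (((hpd.trans d4).trans d3).trans d2)
    · exact hM2 ((hpd.trans d4).trans d3)
    · exact hM3 (hpd.trans d4)
    · exact hM4 hpd
  subst hM4one
  have e : N = 2 ^ i * 3 ^ j * 5 ^ k * 7 ^ l := by
    rw [e1, e2, e3, e4]; ring
  rw [e]
  exact mul_dvd_mul (mul_dvd_mul (mul_dvd_mul (pow_dvd_pow 2 hi) (pow_dvd_pow 3 hj))
    (pow_dvd_pow 5 hk)) (pow_dvd_pow 7 hl)

private theorem t8 : Nat.totient 8 = 4 := by decide
private theorem t16 : Nat.totient 16 = 8 := by decide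
private theorem t9 : Nat.totient 9 = 6 := by decide
private theorem t27 : Nat.totient 27 = 18 := by decide
private theorem t15 : Nat.totient 15 = 8 := by decide
private theorem t14 : Nat.totient 14 = 6 := by decide
private theorem t28 : Nat.totient 28 = 12 := by decide
private theorem t35 : Nat.totient 35 = 24 := by decide
private theorem t49 : Nat.totient 49 = 42 := by decide
private theorem t21 : Nat.totient 21 = 12 := by decide
private theorem t25 : Nat.totient 25 = 20 := by decide
private theorem t125 : Nat.totient 125 = 100 := by decide +kernel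

/-- NUM6: the arithmetic constraints of `nse(A₆)` force `N = 360` and all the counts. -/
theorem nse_num6 (N : ℕ) (s : ℕ → ℕ) (hN0 : 0 < N)
    (h1 : s 1 = 1)
    (hphi : ∀ m, Nat.totient m ∣ s m)
    (hF : ∀ m, m ∣ N → m ∣ ∑ d ∈ m.divisors, s d)
    (hsum : N = ∑ d ∈ N.divisors, s d)
    (hdiv : ∀ m d, s m ≠ 0 → d ∣ m → s d ≠ 0)
    (hord : ∀ m, s m ≠ 0 → m ∣ N)
    (hp : ∀ p, p.Prime → p ∣ N → s p ≠ 0)
    (hV : ∀ m, s m = 0 ∨ s m = 1 ∨ s m = 45 ∨ s m = 80 ∨ s m = 90 ∨ s m = 144)
    (h45 : ∃ m, s m = 45) (h80 : ∃ m, s m = 80) (h90 : ∃ m, s m = 90) (h144 : ∃ m, s m = 144) :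
    N = 360 ∧ s 3 = 80 ∧ s 5 = 144 ∧
      ∀ m, s m ≠ 0 → m = 1 ∨ m = 2 ∨ m = 3 ∨ m = 4 ∨ m = 5 := by
  have hdiv0 : ∀ d m, s d = 0 → d ∣ m → s m = 0 := by
    intro d m hd hdm
    by_contra h
    exact hdiv m d h hdm hd
  -- Step 1
  have heven : ∀ m, 3 ≤ m → 2 ∣ s m := fun m hm =>
    (Nat.totient_even (by omega)).two_dvd.trans (hphi m)
  have hs0 : s 0 = 0 := by
    have h := hphi 0
    rw [Nat.totient_zero] at h
    exact zero_dvd_iff.mp h
  have h2 : s 2 = 45 := by
    obtain ⟨m, hm⟩ := h45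
    rcases Nat.lt_or_ge m 3 with h | h
    · interval_cases m
      · omega
      · omega
      · exact hm
    · have := heven m h
      omega
  have hN2 : 2 ∣ N := hord 2 (by omega)
  -- Step 2: primes
  have hprime : ∀ p, p.Prime → p ∣ N →
      (p = 2) ∨ (p = 3 ∧ s p = 80) ∨ (p = 5 ∧ s p = 144) ∨ (p = 7 ∧ s p = 90) := by
    intro p hpp hpN
    have hne := hp p hpp hpN
    have hF1 := hF p hpN
    rw [Nat.Prime.sum_divisors hpp, h1] at hF1
    have hφ := hphi p
    rw [Nat.totient_prime hpp] at hφ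
    rcases hV p with h | h | h | h | h | h
    · exact absurd h hne
    · left
      rw [h] at hF1
      exact (Nat.prime_dvd_prime_iff_eq hpp Nat.prime_two).mp hF1
    · rw [h] at hF1 hφ
      have h46 : p ∣ 2 * 23 := hF1
      rcases (Nat.Prime.dvd_mul hpp).mp h46 with h' | h'
      · left; exact (Nat.prime_dvd_prime_iff_eq hpp Nat.prime_two).mp h'
      · have e := (Nat.prime_dvd_prime_iff_eq hpp (by norm_num)).mp h'
        subst e
        omega
    · rw [h] at hF1
      have h81 : p ∣ 3 ^ 4 := hF1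
      have h3 := hpp.dvd_of_dvd_pow h81
      have e := (Nat.prime_dvd_prime_iff_eq hpp Nat.prime_three).mp h3
      right; left; exact ⟨e, h⟩
    · rw [h] at hF1 hφ
      have h91 : p ∣ 7 * 13 := hF1
      rcases (Nat.Prime.dvd_mul hpp).mp h91 with h' | h'
      · have e := (Nat.prime_dvd_prime_iff_eq hpp (by norm_num)).mp h'
        right; right; right; exact ⟨e, h⟩
      · have e := (Nat.prime_dvd_prime_iff_eq hpp (by norm_num)).mp h'
        subst e
        omega
    · rw [h] at hF1 hφ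
      have h145 : p ∣ 5 * 29 := hF1
      rcases (Nat.Prime.dvd_mul hpp).mp h145 with h' | h'
      · have e := (Nat.prime_dvd_prime_iff_eq hpp (by norm_num)).mp h'
        right; right; left; exact ⟨e, h⟩
      · have e := (Nat.prime_dvd_prime_iff_eq hpp (by norm_num)).mp h'
        subst e
        omega
  have hpr : ∀ p, p.Prime → p ∣ N → p = 2 ∨ p = 3 ∨ p = 5 ∨ p = 7 := by
    intro p hpp hpN
    rcases hprime p hpp hpN with h | ⟨h, _⟩ | ⟨h, _⟩ | ⟨h, _⟩
    · exact Or.inl h
    · exact Or.inr (Or.inl h)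
    · exact Or.inr (Or.inr (Or.inl h))
    · exact Or.inr (Or.inr (Or.inr h))
  have hs3 : 3 ∣ N → s 3 = 80 := by
    intro h
    rcases hprime 3 Nat.prime_three h with h' | ⟨_, h'⟩ | ⟨h', _⟩ | ⟨h', _⟩
    · omega
    · exact h'
    · omega
    · omega
  have hs5 : 5 ∣ N → s 5 = 144 := by
    intro h
    rcases hprime 5 (by norm_num) h with h' | ⟨h', _⟩ | ⟨_, h'⟩ | ⟨h', _⟩
    · omega
    · omega
    · exact h'
    · omega
  have hs7 : 7 ∣ N → s 7 = 90 := by
    intro h
    rcases hprime 7 (by norm_num) h with h' | ⟨h', _⟩ | ⟨h', _⟩ | ⟨_, h'⟩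
    · omega
    · omega
    · omega
    · exact h'
  -- Step 3: N ≥ 360
  have hN360 : 360 ≤ N := by
    obtain ⟨a, ha⟩ := h80
    obtain ⟨b, hb⟩ := h90
    obtain ⟨c, hc⟩ := h144
    have hsub : ({1, 2, a, b, c} : Finset ℕ) ⊆ N.divisors := by
      intro x hx
      simp only [Finset.mem_insert, Finset.mem_singleton] at hx
      rw [Nat.mem_divisors]
      refine ⟨?_, hN0.ne'⟩
      rcases hx with rfl | rfl | rfl | rfl | rfl <;> apply hord <;> omega
    have hle := Finset.sum_le_sum_of_subset (f := s) hsub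
    rw [← hsum] at hle
    have n1 : (1 : ℕ) ∉ ({2, a, b, c} : Finset ℕ) := by
      simp only [Finset.mem_insert, Finset.mem_singleton, not_or]
      refine ⟨by omega, ?_, ?_, ?_⟩ <;> (intro e; subst e; omega)
    have n2 : (2 : ℕ) ∉ ({a, b, c} : Finset ℕ) := by
      simp only [Finset.mem_insert, Finset.mem_singleton, not_or]
      refine ⟨?_, ?_, ?_⟩ <;> (intro e; subst e; omega)
    have n3 : a ∉ ({b, c} : Finset ℕ) := by
      simp only [Finset.mem_insert, Finset.mem_singleton, not_or]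
      refine ⟨?_, ?_⟩ <;> (intro e; subst e; omega)
    have n4 : b ∉ ({c} : Finset ℕ) := by
      simp only [Finset.mem_singleton]
      intro e; subst e; omega
    rw [Finset.sum_insert n1, Finset.sum_insert n2, Finset.sum_insert n3, Finset.sum_insert n4,
      Finset.sum_singleton] at hle
    omega
  -- values allowed by the totient
  have p8 : 4 ∣ s 8 := t8 ▸ hphi 8
  have p16 : 8 ∣ s 16 := t16 ▸ hphi 16
  have p9 : 6 ∣ s 9 := t9 ▸ hphi 9
  have p27 : 18 ∣ s 27 := t27 ▸ hphi 27
  have p15 : 8 ∣ s 15 := t15 ▸ hphi 15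
  have p14 : 6 ∣ s 14 := t14 ▸ hphi 14
  have p28 : 12 ∣ s 28 := t28 ▸ hphi 28
  have p35 : 24 ∣ s 35 := t35 ▸ hphi 35
  have p49 : 42 ∣ s 49 := t49 ▸ hphi 49
  have p21 : 12 ∣ s 21 := t21 ▸ hphi 21
  have p25 : 20 ∣ s 25 := t25 ▸ hphi 25
  have p125 : 100 ∣ s 125 := t125 ▸ hphi 125
  -- Step 4
  have F4 : 4 ∣ N → s 4 = 90 := by
    intro h
    have e := dsum_eq s 4 [1, 2, 4] (by decide) (by decide)
    simp only [List.map_cons, List.map_nil, List.sum_cons, List.sum_nil] at e
    have hF' := hF 4 h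
    rw [e] at hF'
    have := hV 4
    omega
  have F16 : ¬ 16 ∣ N := by
    intro h
    have h4 := F4 (Dvd.dvd.trans (by norm_num) h)
    have e := dsum_eq s 16 [1, 2, 4, 8, 16] (by decide) (by decide)
    simp only [List.map_cons, List.map_nil, List.sum_cons, List.sum_nil] at e
    have hF' := hF 16 h
    rw [e] at hF'
    have := hV 8
    have := hV 16
    omega
  -- Step 5
  have F27 : 27 ∣ N → s 9 = 0 ∧ s 27 = 0 := by
    intro h
    have h3 := hs3 (Dvd.dvd.trans (by norm_num) h)
    have e := dsum_eq s 27 [1, 3, 9, 27] (by decide) (by decide)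
    simp only [List.map_cons, List.map_nil, List.sum_cons, List.sum_nil] at e
    have hF' := hF 27 h
    rw [e] at hF'
    have := hV 9
    have := hV 27
    omega
  -- Step 6
  have F15 : 15 ∣ N → s 15 = 0 := by
    intro h
    have h3 := hs3 (Dvd.dvd.trans (by norm_num) h)
    have h5 := hs5 (Dvd.dvd.trans (by norm_num) h)
    have e := dsum_eq s 15 [1, 3, 5, 15] (by decide) (by decide)
    simp only [List.map_cons, List.map_nil, List.sum_cons, List.sum_nil] at e
    have hF' := hF 15 h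
    rw [e] at hF'
    have := hV 15
    omega
  -- Step 7: 7 does not divide N
  have F7 : ¬ 7 ∣ N := by
    intro h7
    have s7 := hs7 h7
    have h14 : 14 ∣ N := Nat.Coprime.mul_dvd_of_dvd_of_dvd (by norm_num : Nat.Coprime 2 7) hN2 h7
    have s14 : s 14 = 144 := by
      have e := dsum_eq s 14 [1, 2, 7, 14] (by decide) (by decide)
      simp only [List.map_cons, List.map_nil, List.sum_cons, List.sum_nil] at e
      have hF' := hF 14 h14
      rw [e] at hF'
      have := hV 14
      omega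
    have a4 : ¬ 2 ^ (1 + 1) ∣ N := by
      intro h4
      have h4' : 4 ∣ N := h4
      have s4 := F4 h4'
      have h28 : 28 ∣ N :=
        Nat.Coprime.mul_dvd_of_dvd_of_dvd (by norm_num : Nat.Coprime 4 7) h4' h7
      have e := dsum_eq s 28 [1, 2, 4, 7, 14, 28] (by decide) (by decide)
      simp only [List.map_cons, List.map_nil, List.sum_cons, List.sum_nil] at e
      have hF' := hF 28 h28
      rw [e] at hF'
      have := hV 28
      omega
    have a5 : ¬ 5 ^ (0 + 1) ∣ N := by
      intro h5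
      have h5' : 5 ∣ N := by simpa using h5
      have s5 := hs5 h5'
      have h35 : 35 ∣ N :=
        Nat.Coprime.mul_dvd_of_dvd_of_dvd (by norm_num : Nat.Coprime 5 7) h5' h7
      have e := dsum_eq s 35 [1, 5, 7, 35] (by decide) (by decide)
      simp only [List.map_cons, List.map_nil, List.sum_cons, List.sum_nil] at e
      have hF' := hF 35 h35
      rw [e] at hF'
      have := hV 35
      omega
    have a49 : ¬ 7 ^ (1 + 1) ∣ N := by
      intro h49
      have h49' : 49 ∣ N := h49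
      have e := dsum_eq s 49 [1, 7, 49] (by decide) (by decide)
      simp only [List.map_cons, List.map_nil, List.sum_cons, List.sum_nil] at e
      have hF' := hF 49 h49'
      rw [e] at hF'
      have := hV 49
      omega
    have a27 : ¬ 3 ^ (2 + 1) ∣ N := by
      intro h27
      have h27' : 27 ∣ N := h27
      have h3N : 3 ∣ N := Dvd.dvd.trans (by norm_num) h27'
      have s3 := hs3 h3N
      obtain ⟨s9, s27⟩ := F27 h27'
      have h21 : 21 ∣ N :=
        Nat.Coprime.mul_dvd_of_dvd_of_dvd (by norm_num : Nat.Coprime 3 7) h3N h7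
      have s21 : s 21 = 144 := by
        have e := dsum_eq s 21 [1, 3, 7, 21] (by decide) (by decide)
        simp only [List.map_cons, List.map_nil, List.sum_cons, List.sum_nil] at e
        have hF' := hF 21 h21
        rw [e] at hF'
        have := hV 21
        omega
      have h189 : 189 ∣ N :=
        Nat.Coprime.mul_dvd_of_dvd_of_dvd (by norm_num : Nat.Coprime 27 7) h27' h7
      have s63 : s 63 = 0 := hdiv0 9 63 s9 (by norm_num)
      have s189 : s 189 = 0 := hdiv0 9 189 s9 (by norm_num)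
      have e := dsum_eq s 189 [1, 3, 7, 9, 21, 27, 63, 189] (by decide +kernel) (by decide)
      simp only [List.map_cons, List.map_nil, List.sum_cons, List.sum_nil] at e
      have hF' := hF 189 h189
      rw [e] at hF'
      omega
    have hle := Nat.le_of_dvd (by norm_num) (dvd_of_bounds N hN0 hpr 1 2 0 1 a4 a27 a5 a49)
    norm_num at hle
    omega
  -- Step 8
  have h5N : 5 ∣ N := by
    by_contra h5
    have a5 : ¬ 5 ^ (0 + 1) ∣ N := by simpa using h5
    have a7 : ¬ 7 ^ (0 + 1) ∣ N := by simpa using F7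
    have a16 : ¬ 2 ^ (3 + 1) ∣ N := F16
    have a243 : ¬ 3 ^ (4 + 1) ∣ N := by
      intro h243
      have h243' : 243 ∣ N := h243
      have h27' : 27 ∣ N := Dvd.dvd.trans (by norm_num) h243'
      have s3 := hs3 (Dvd.dvd.trans (by norm_num) h27')
      obtain ⟨s9, s27⟩ := F27 h27'
      have s81 : s 81 = 0 := hdiv0 9 81 s9 (by norm_num)
      have s243 : s 243 = 0 := hdiv0 9 243 s9 (by norm_num)
      have e := dsum_eq s 243 [1, 3, 9, 27, 81, 243] (by decide +kernel) (by decide)
      simp only [List.map_cons, List.map_nil, List.sum_cons, List.sum_nil] at e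
      have hF' := hF 243 h243'
      rw [e] at hF'
      omega
    have hd := dvd_of_bounds N hN0 hpr 3 4 0 0 a16 a243 a5 a7
    have hd' : N ∣ 648 := by norm_num at hd; exact hd
    obtain ⟨k, hk⟩ := hd'
    have hk1 : k = 1 := by
      rcases Nat.lt_or_ge k 2 with h | h
      · interval_cases k
        · omega
        · rfl
      · nlinarith
    subst hk1
    have hN648 : N = 648 := by omega
    have h162 : 162 ∣ N := by rw [hN648]; norm_num
    have h27' : 27 ∣ N := by rw [hN648]; norm_num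
    have s3 := hs3 (Dvd.dvd.trans (by norm_num) h27')
    obtain ⟨s9, s27⟩ := F27 h27'
    have s18 : s 18 = 0 := hdiv0 9 18 s9 (by norm_num)
    have s54 : s 54 = 0 := hdiv0 9 54 s9 (by norm_num)
    have s81 : s 81 = 0 := hdiv0 9 81 s9 (by norm_num)
    have s162 : s 162 = 0 := hdiv0 9 162 s9 (by norm_num)
    have e := dsum_eq s 162 [1, 2, 3, 6, 9, 18, 27, 54, 81, 162] (by decide +kernel) (by decide)
    simp only [List.map_cons, List.map_nil, List.sum_cons, List.sum_nil] at e
    have hF' := hF 162 h162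
    rw [e] at hF'
    have := hV 6
    omega
  have s5 := hs5 h5N
  have h3N : 3 ∣ N := by
    by_contra h3
    have a3 : ¬ 3 ^ (0 + 1) ∣ N := by simpa using h3
    have a7 : ¬ 7 ^ (0 + 1) ∣ N := by simpa using F7
    have a16 : ¬ 2 ^ (3 + 1) ∣ N := F16
    have a125 : ¬ 5 ^ (2 + 1) ∣ N := by
      intro h125
      have h125' : 125 ∣ N := h125
      have e := dsum_eq s 125 [1, 5, 25, 125] (by decide +kernel) (by decide)
      simp only [List.map_cons, List.map_nil, List.sum_cons, List.sum_nil] at e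
      have hF' := hF 125 h125'
      rw [e] at hF'
      have e25 := dsum_eq s 25 [1, 5, 25] (by decide) (by decide)
      simp only [List.map_cons, List.map_nil, List.sum_cons, List.sum_nil] at e25
      have hF25 := hF 25 (Dvd.dvd.trans (by norm_num) h125')
      rw [e25] at hF25
      have := hV 25
      have := hV 125
      omega
    have hle := Nat.le_of_dvd (by norm_num) (dvd_of_bounds N hN0 hpr 3 0 2 0 a16 a3 a125 a7)
    norm_num at hle
    omega
  have s3 := hs3 h3N
  have h15N : 15 ∣ N :=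
    Nat.Coprime.mul_dvd_of_dvd_of_dvd (by norm_num : Nat.Coprime 3 5) h3N h5N
  have s15 := F15 h15N
  have a25 : ¬ 5 ^ (1 + 1) ∣ N := by
    intro h25
    have h25' : 25 ∣ N := h25
    have e25 := dsum_eq s 25 [1, 5, 25] (by decide) (by decide)
    simp only [List.map_cons, List.map_nil, List.sum_cons, List.sum_nil] at e25
    have hF25 := hF 25 h25'
    rw [e25] at hF25
    have h75 : 75 ∣ N :=
      Nat.Coprime.mul_dvd_of_dvd_of_dvd (by norm_num : Nat.Coprime 3 25) h3N h25'
    have s75 : s 75 = 0 := hdiv0 15 75 s15 (by norm_num)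
    have e := dsum_eq s 75 [1, 3, 5, 15, 25, 75] (by decide) (by decide)
    simp only [List.map_cons, List.map_nil, List.sum_cons, List.sum_nil] at e
    have hF' := hF 75 h75
    rw [e] at hF'
    have := hV 25
    omega
  have a27 : ¬ 3 ^ (2 + 1) ∣ N := by
    intro h27
    have h27' : 27 ∣ N := h27
    obtain ⟨s9, s27⟩ := F27 h27'
    have h135 : 135 ∣ N :=
      Nat.Coprime.mul_dvd_of_dvd_of_dvd (by norm_num : Nat.Coprime 27 5) h27' h5N
    have s45 : s 45 = 0 := hdiv0 9 45 s9 (by norm_num)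
    have s135 : s 135 = 0 := hdiv0 9 135 s9 (by norm_num)
    have e := dsum_eq s 135 [1, 3, 5, 9, 15, 27, 45, 135] (by decide +kernel) (by decide)
    simp only [List.map_cons, List.map_nil, List.sum_cons, List.sum_nil] at e
    have hF' := hF 135 h135
    rw [e] at hF'
    omega
  have hN : N = 360 := by
    have a7 : ¬ 7 ^ (0 + 1) ∣ N := by simpa using F7
    have a16 : ¬ 2 ^ (3 + 1) ∣ N := F16
    have hd := dvd_of_bounds N hN0 hpr 3 2 1 0 a16 a27 a25 a7
    have hle := Nat.le_of_dvd (by norm_num) hd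
    norm_num at hle
    omega
  subst hN
  -- Step 9
  have s4 := F4 (by norm_num)
  have e := dsum_eq s 360 [1, 2, 3, 4, 5, 6, 8, 9, 10, 12, 15, 18, 20, 24, 30, 36, 40, 45, 60, 72,
    90, 120, 180, 360] (by decide +kernel) (by decide)
  simp only [List.map_cons, List.map_nil, List.sum_cons, List.sum_nil] at e
  rw [e] at hsum
  refine ⟨rfl, s3, s5, ?_⟩
  intro m hm
  have hmd : m ∈ Nat.divisors 360 := Nat.mem_divisors.mpr ⟨hord m hm, by norm_num⟩
  rw [show Nat.divisors 360 = [1, 2, 3, 4, 5, 6, 8, 9, 10, 12, 15, 18, 20, 24, 30, 36, 40, 45, 60,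
    72, 90, 120, 180, 360].toFinset from by decide +kernel] at hmd
  simp only [List.mem_toFinset, List.mem_cons, List.not_mem_nil, or_false] at hmd
  rcases hmd with rfl | rfl | rfl | rfl | rfl | rfl | rfl | rfl | rfl | rfl | rfl | rfl | rfl |
    rfl | rfl | rfl | rfl | rfl | rfl | rfl | rfl | rfl | rfl | rfl <;> omega

end Cfsg.Agent.Lib.Helper62.Nse6
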