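import Mathlib

/-!
S5981 piece OQ-ARITHODD (helper62 for helper96): pure arithmetic for the odd-dimensional
orthogonal index computation.
-/

set_option autoImplicit false

namespace Cfsg.Agent.Lib.Helper62.Oq

theorem arith_odd_aux_prod (q n : ℕ) :
    ∏ i : Fin n, (q ^ n - q ^ (i : ℕ)) =
      q ^ (∑ i ∈ Finset.range n, i) * ∏ j ∈ Finset.range n, (q ^ (j + 1) - 1) := by
  rw [Fin.prod_univ_eq_prod_range (fun i => q ^ n - q ^ i) n]
  rw [← Finset.prod_pow_eq_pow_sum, ← Finset.prod_range_reflect (fun j => q ^ (j + 1) - 1) n,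
    ← Finset.prod_mul_distrib]
  refine Finset.prod_congr rfl fun i hi => ?_
  have hi' : i < n := Finset.mem_range.mp hi
  have h1 : n - 1 - i + 1 = n - i := by omega
  rw [h1, Nat.mul_sub, mul_one, ← pow_add]
  congr 2
  omega

theorem arith_odd_aux_split (q m : ℕ) :
    ∏ j ∈ Finset.range (2 * m + 1), (q ^ (j + 1) - 1) =
      (∏ k ∈ Finset.range m, (q ^ (2 * (k + 1)) - 1)) *
        ∏ k ∈ Finset.range (m + 1), (q ^ (2 * k + 1) - 1) := by
  induction m with
  | zero => simp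
  | succ m ih =>
    have h0 : 2 * (m + 1) + 1 = (2 * m + 1) + 1 + 1 := by ring
    rw [h0, Finset.prod_range_succ, Finset.prod_range_succ, ih,
      Finset.prod_range_succ (fun k => q ^ (2 * (k + 1)) - 1) m,
      Finset.prod_range_succ (fun k => q ^ (2 * k + 1) - 1) (m + 1)]
    have e1 : 2 * m + 1 + 1 = 2 * (m + 1) := by ring
    have e2 : 2 * m + 1 + 1 + 1 = 2 * (m + 1) + 1 := by ring
    rw [e1]
    ring

theorem arith_odd (q r m R t O S : ℕ) (hq : 2 ≤ q) (hr : r.Prime) (hrq : ¬ r ∣ q)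
    (hO : O = 2 * q ^ (m ^ 2) * ∏ i ∈ Finset.range m, (q ^ (2 * (i + 1)) - 1))
    (hS : S * (q - 1) = ∏ i : Fin (2 * m + 1), (q ^ (2 * m + 1) - q ^ (i : ℕ)))
    (hidx : R * t * O = 2 * S) (hR : r ∣ R) : ∃ j, Odd j ∧ r ∣ q ^ j - 1 := by
  rw [arith_odd_aux_prod q _, arith_odd_aux_split] at hS
  have hEpos : 0 < ∏ i ∈ Finset.range m, (q ^ (2 * (i + 1)) - 1) := by
    apply Finset.prod_pos
    intro i _
    have h1 : 1 < q ^ (2 * (i + 1)) := Nat.one_lt_pow (by omega) (by omega)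
    omega
  generalize (∏ i ∈ Finset.range m, (q ^ (2 * (i + 1)) - 1)) = E at hO hS hEpos
  generalize hD : (∏ k ∈ Finset.range (m + 1), (q ^ (2 * k + 1) - 1)) = D at hS
  generalize (∑ i ∈ Finset.range (2 * m + 1), i) = N at hS
  have key : R * (t * q ^ (m ^ 2) * (q - 1)) = q ^ N * D := by
    have h1 : (2 * E) * (R * (t * q ^ (m ^ 2) * (q - 1))) = (2 * E) * (q ^ N * D) := by
      calc (2 * E) * (R * (t * q ^ (m ^ 2) * (q - 1)))
          = R * t * (2 * q ^ (m ^ 2) * E) * (q - 1) := by ring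
        _ = R * t * O * (q - 1) := by rw [hO]
        _ = 2 * (S * (q - 1)) := by rw [hidx]; ring
        _ = (2 * E) * (q ^ N * D) := by rw [hS]; ring
    exact Nat.eq_of_mul_eq_mul_left (by omega) h1
  have hdvd : r ∣ q ^ N * D := key ▸ Dvd.dvd.mul_right hR _
  have hD' : r ∣ D := by
    rcases (Nat.Prime.dvd_mul hr).mp hdvd with h | h
    · exact absurd (hr.dvd_of_dvd_pow h) hrq
    · exact h
  rw [← hD] at hD'
  obtain ⟨k, _, hk⟩ := (Prime.dvd_finsetProd_iff hr.prime _).mp hD'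
  exact ⟨2 * k + 1, ⟨k, rfl⟩, hk⟩

end Cfsg.Agent.Lib.Helper62.Oq
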