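import Cfsg.Agent.Lib.Helper22.PTDefs
import Cfsg.Agent.Lib.Helper33.TIFour
import Cfsg.Agent.Lib.Helper83.Central
import Cfsg.Agent.Lib.Helper83.Twist
import Cfsg.Agent.Lib.Helper82.CharCore

/-!
# S4705 project (helper22, "PT"): shared lemmas for the pieces MOM2 and MOM3 (helper62)
-/

set_option autoImplicit false

namespace Cfsg.Agent.Lib.Helper62.PT

open Cfsg Cfsg.Agent.Lib.Helper22.BFD Cfsg.Agent.Lib.Helper22.PT
open scoped ComplexConjugate

universe u

variable {G : Type u} [Group G] [Fintype G]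

/-- `ev` is real. -/
theorem mom_ev_conj (p : ℕ) [Fact p.Prime] (w : ℂ) (hw : IsPrimitiveRoot w p) (v t : ZMod p) :
    conj (ev p w v t) = ev p w v t := by
  have hw1 : w ^ p = 1 := hw.pow_eq_one
  unfold ev
  rw [map_add, Helper33.TI.conj_pow_val p w hw1, Helper33.TI.conj_pow_val p w hw1, neg_neg,
    add_comm]

theorem mom_ev_sq (p : ℕ) [Fact p.Prime] (w : ℂ) (hw : IsPrimitiveRoot w p) (v t : ZMod p) :
    ev p w v t ^ 2 = w ^ ((2 * v) * t).val + w ^ ((-(2 * v)) * t).val + 2 := by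
  have hw1 : w ^ p = 1 := hw.pow_eq_one
  have e1 : (2 * v) * t = v * t + v * t := by ring
  have e2 : (-(2 * v)) * t = -(v * t) + -(v * t) := by ring
  have e3 : w ^ (v * t).val * w ^ (-(v * t)).val = 1 := by
    rw [← Helper33.TI.pow_val_add p w hw1, add_neg_cancel, ZMod.val_zero, pow_zero]
  unfold ev
  rw [e1, e2]
  simp only [Helper33.TI.pow_val_add p w hw1]
  linear_combination 2 * e3

theorem mom_ev_cube (p : ℕ) [Fact p.Prime] (w : ℂ) (hw : IsPrimitiveRoot w p) (v t : ZMod p) :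
    ev p w v t ^ 3 = w ^ ((3 * v) * t).val + w ^ ((-(3 * v)) * t).val +
      3 * w ^ (v * t).val + 3 * w ^ ((-v) * t).val := by
  have hw1 : w ^ p = 1 := hw.pow_eq_one
  have e1 : (3 * v) * t = v * t + v * t + v * t := by ring
  have e2 : (-(3 * v)) * t = -(v * t) + -(v * t) + -(v * t) := by ring
  have e4 : (-v) * t = -(v * t) := by ring
  have e3 : w ^ (v * t).val * w ^ (-(v * t)).val = 1 := by
    rw [← Helper33.TI.pow_val_add p w hw1, add_neg_cancel, ZMod.val_zero, pow_zero]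
  unfold ev
  rw [e1, e2, e4]
  simp only [Helper33.TI.pow_val_add p w hw1]
  linear_combination (3 * w ^ (v * t).val + 3 * w ^ (-(v * t)).val) * e3

theorem mom_two_ne (p : ℕ) [Fact p.Prime] (hp5 : 5 < p) : (2 : ZMod p) ≠ 0 := by
  have h : ((2 : ℕ) : ZMod p) ≠ 0 := by
    rw [Ne, ZMod.natCast_eq_zero_iff]
    intro hd
    have := Nat.le_of_dvd (by norm_num) hd
    omega
  exact_mod_cast h

theorem mom_three_ne (p : ℕ) [Fact p.Prime] (hp5 : 5 < p) : (3 : ZMod p) ≠ 0 := by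
  have h : ((3 : ℕ) : ZMod p) ≠ 0 := by
    rw [Ne, ZMod.natCast_eq_zero_iff]
    intro hd
    have := Nat.le_of_dvd (by norm_num) hd
    omega
  exact_mod_cast h

theorem mom_sum_ev_sq (p : ℕ) [Fact p.Prime] (hp5 : 5 < p) (w : ℂ) (hw : IsPrimitiveRoot w p)
    (u : ZMod p) (hu : u ≠ 0) :
    ∑ t : ZMod p, ev p w u t ^ 2 - ev p w u 0 ^ 2 = 2 * (p : ℂ) - 4 := by
  have h2 : (2 : ZMod p) * u ≠ 0 := mul_ne_zero (mom_two_ne p hp5) hu
  have h2' : -((2 : ZMod p) * u) ≠ 0 := neg_ne_zero.mpr h2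
  simp only [mom_ev_sq p w hw]
  rw [Finset.sum_add_distrib, Finset.sum_add_distrib, Helper33.TI.sum_pow_val p w hw,
    Helper33.TI.sum_pow_val p w hw, if_neg h2, if_neg h2']
  simp
  ring

theorem mom_sum_ev_cube (p : ℕ) [Fact p.Prime] (hp5 : 5 < p) (w : ℂ) (hw : IsPrimitiveRoot w p)
    (u : ZMod p) (hu : u ≠ 0) :
    ∑ t : ZMod p, -(ev p w u t ^ 3) - -(ev p w u 0 ^ 3) = 8 := by
  have h3 : (3 : ZMod p) * u ≠ 0 := mul_ne_zero (mom_three_ne p hp5) hu
  have h3' : -((3 : ZMod p) * u) ≠ 0 := neg_ne_zero.mpr h3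
  have hu' : -u ≠ 0 := neg_ne_zero.mpr hu
  simp only [mom_ev_cube p w hw]
  rw [Finset.sum_neg_distrib, Finset.sum_add_distrib, Finset.sum_add_distrib,
    Finset.sum_add_distrib, ← Finset.mul_sum, ← Finset.mul_sum, Helper33.TI.sum_pow_val p w hw,
    Helper33.TI.sum_pow_val p w hw, Helper33.TI.sum_pow_val p w hw,
    Helper33.TI.sum_pow_val p w hw, if_neg h3, if_neg h3', if_neg hu, if_neg hu']
  simp
  norm_num

/-- The norm square sum of an irreducible character. -/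
theorem mom_total (ζ : G → ℂ) (hirr : IsIrrCharacter G ζ) :
    ∑ g : G, ζ g * conj (ζ g) = (Nat.card G : ℂ) := by
  have h1 := Helper83.irr_orthonormal (⟨ζ, hirr⟩ : IrrCharacter G) ⟨ζ, hirr⟩
  rw [if_pos rfl] at h1
  unfold classInner at h1
  have hne : (Nat.card G : ℂ) ≠ 0 := by exact_mod_cast (Nat.card_pos (α := G)).ne'
  rw [inv_mul_eq_iff_eq_mul₀ hne, mul_one] at h1
  exact h1

/-- A central element acts by a scalar of norm one. -/
theorem mom_cen (ζ : G → ℂ) (hirr : IsIrrCharacter G ζ) (c : G) (hc : c ∈ Subgroup.center G) :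
    ∃ l : ℂ, l * conj l = 1 ∧ ∀ g : G, ζ (c * g) = l * ζ g := by
  have hd := Helper82.irr_charDegree (⟨ζ, hirr⟩ : IrrCharacter G)
  have hn := Helper83.irr_central_norm (⟨ζ, hirr⟩ : IrrCharacter G) c hc
  have hm := Helper83.irr_central_mul (⟨ζ, hirr⟩ : IrrCharacter G) c hc
  change ((charDegree ζ : ℕ) : ℂ) = ζ 1 ∧ charDegree ζ ≠ 0 at hd
  change ‖ζ c‖ = (charDegree ζ : ℝ) at hn
  change ∀ g, ζ (c * g) * ζ 1 = ζ c * ζ g at hm
  obtain ⟨hd1, hd2⟩ := hd
  have h1 : ζ 1 ≠ 0 := by rw [← hd1]; exact_mod_cast hd2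
  refine ⟨ζ c / ζ 1, ?_, fun g => ?_⟩
  · have h2 : ‖ζ 1‖ = (charDegree ζ : ℝ) := by rw [← hd1, Complex.norm_natCast]
    have h3 : ((charDegree ζ : ℕ) : ℝ) ≠ 0 := by exact_mod_cast hd2
    rw [Complex.mul_conj', norm_div, hn, h2, div_self h3]
    simp
  · have := hm g
    field_simp
    linear_combination this

theorem mom_sum_ne (p : ℕ) [Fact p.Prime] (g : ZMod p → ℂ) :
    ∑ t : ZMod p, (if t = 0 then 0 else g t) = ∑ t : ZMod p, g t - g 0 := by
  have : ∀ t : ZMod p, (if t = 0 then 0 else g t) = g t - (if t = 0 then g 0 else 0) := by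
    intro t
    by_cases ht : t = 0
    · subst ht; simp
    · simp [ht]
  rw [Finset.sum_congr rfl (fun t _ => this t), Finset.sum_sub_distrib]
  simp

theorem mom_sum_cen (p : ℕ) [Fact p.Prime] (z : G) (F : G → ℂ) (f : ZMod p → ℂ)
    (hf : ∀ t : ZMod p, t ≠ 0 → ∀ c ∈ Subgroup.center G, F (z ^ t.val * c) = f t)
    (t : ZMod p) (dd : ∀ c : G, Decidable (t ≠ 0 ∧ c ∈ Subgroup.center G)) :
    ∑ c : G, (@ite _ (t ≠ 0 ∧ c ∈ Subgroup.center G) (dd c) (F (z ^ t.val * c)) 0) =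
      if t = 0 then 0 else (Nat.card (Subgroup.center G) : ℂ) * f t := by
  classical
  by_cases ht : t = 0
  · rw [if_pos ht]
    exact Finset.sum_eq_zero (fun c _ => if_neg (fun h => h.1 ht))
  · rw [if_neg ht]
    have h1 : ∀ c : G, (@ite _ (t ≠ 0 ∧ c ∈ Subgroup.center G) (dd c) (F (z ^ t.val * c)) 0) =
        if c ∈ Subgroup.center G then f t else 0 := by
      intro c
      by_cases hc : c ∈ Subgroup.center G
      · rw [if_pos ⟨ht, hc⟩, if_pos hc, hf t ht c hc]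
      · rw [if_neg (fun h => hc h.2), if_neg hc]
    rw [Finset.sum_congr rfl (fun c _ => h1 c), ← Finset.sum_filter, Finset.sum_const,
      nsmul_eq_mul]
    have h2 : (Finset.univ.filter (fun c : G => c ∈ Subgroup.center G)).card =
        Nat.card (Subgroup.center G) :=
      (Nat.subtype_card (Finset.univ.filter (fun c : G => c ∈ Subgroup.center G))
        (by simp)).symm
    rw [h2]

theorem mom_sum_cen2 (p : ℕ) [Fact p.Prime] (z : G) (F : G → ℂ) (f : ZMod p → ℂ)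
    (hf : ∀ t : ZMod p, t ≠ 0 → ∀ c ∈ Subgroup.center G, F (z ^ t.val * c) = f t)
    (dd : ∀ (t : ZMod p) (c : G), Decidable (t ≠ 0 ∧ c ∈ Subgroup.center G)) :
    ∑ t : ZMod p, ∑ c : G,
        (@ite _ (t ≠ 0 ∧ c ∈ Subgroup.center G) (dd t c) (F (z ^ t.val * c)) 0) =
      (Nat.card (Subgroup.center G) : ℂ) * (∑ t : ZMod p, f t - f 0) := by
  rw [Finset.sum_congr rfl (fun t _ => mom_sum_cen p z F f hf t (dd t)), mom_sum_ne p,
    mul_sub, Finset.mul_sum]

/-- The `p`-regular sum of a class function, from the total sum and `Sing`. -/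
theorem mom_sing_eval (p : ℕ) [Fact p.Prime] (z : G) (hsing : Sing p z) (F : G → ℂ)
    (hF : ∀ g x : G, F (x * g * x⁻¹) = F g) (f : ZMod p → ℂ)
    (hf : ∀ t : ZMod p, t ≠ 0 → ∀ c ∈ Subgroup.center G, F (z ^ t.val * c) = f t)
    (d1 : DecidablePred fun g : G => p ∣ orderOf g) (T : ℂ) (hT : ∑ g : G, F g = T)
    (S : ℂ) (hS : ∑ t : ZMod p, f t - f 0 = S) :
    ∑ g : G, (@ite _ (p ∣ orderOf g) (d1 g) 0 (F g)) =
      T - (Nat.card G : ℂ) / (2 * (p : ℂ)) * S := by
  have hZ : (Nat.card (Subgroup.center G) : ℂ) ≠ 0 := by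
    exact_mod_cast (Nat.card_pos (α := Subgroup.center G)).ne'
  have hp0 : (p : ℂ) ≠ 0 := by exact_mod_cast (Fact.out : p.Prime).ne_zero
  have h0 := hsing F hF
  rw [mom_sum_cen2 p z F f hf, hS] at h0
  have h1 : (Nat.card G : ℂ) / (2 * (p : ℂ)) * S =
      (Nat.card G : ℂ) / (2 * (p : ℂ) * (Nat.card (Subgroup.center G) : ℂ)) *
        ((Nat.card (Subgroup.center G) : ℂ) * S) := by
    field_simp
  rw [← hT, eq_sub_iff_add_eq, h1, ← h0, ← Finset.sum_add_distrib]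
  refine Finset.sum_congr rfl (fun g _ => ?_)
  by_cases hg : p ∣ orderOf g
  · rw [if_pos hg, if_pos hg, zero_add]
  · rw [if_neg hg, if_neg hg, add_zero]

/-- Central elements are `p`-regular. -/
theorem mom_zreg (p : ℕ) [Fact p.Prime] (z : G) (ζ : G → ℂ) (h : Hyp G p z ζ) (c : G)
    (hc : c ∈ Subgroup.center G) : ¬ p ∣ orderOf c := by
  intro hdvd
  have hp := (Fact.out : p.Prime)
  have hc'c : c ^ (orderOf c / p) ∈ Subgroup.center G := Subgroup.pow_mem _ hc _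
  have hoc : orderOf (c ^ (orderOf c / p)) = p := by
    have hpos : 0 < orderOf c / p :=
      Nat.div_pos (Nat.le_of_dvd (orderOf_pos c) hdvd) hp.pos
    rw [orderOf_pow_of_dvd hpos.ne' (Nat.div_dvd_of_dvd hdvd),
      Nat.div_div_self hdvd (orderOf_pos c).ne']
  have hcard0 : Nat.card G ≠ 0 := (Nat.card_pos (α := G)).ne'
  have hpG : p ∣ Nat.card G := by
    have := orderOf_dvd_natCard z
    rwa [h.ord] at this
  have hfac : (Nat.card G).factorization p = 1 := by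
    have h1 : 1 ≤ (Nat.card G).factorization p :=
      (hp.pow_dvd_iff_le_factorization hcard0).mp (by simpa using hpG)
    have h2 : ¬ 2 ≤ (Nat.card G).factorization p := fun h2 =>
      h.sq ((hp.pow_dvd_iff_le_factorization hcard0).mpr h2)
    omega
  have hsyl : ∀ x : G, orderOf x = p → ∃ P : Sylow p G, Subgroup.zpowers x = (P : Subgroup G) := by
    intro x hx
    have hpg : IsPGroup p (Subgroup.zpowers x) :=
      IsPGroup.of_card (n := 1) (by rw [Nat.card_zpowers, hx, pow_one])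
    obtain ⟨P, hP⟩ := hpg.exists_le_sylow
    refine ⟨P, Subgroup.eq_of_le_of_card_ge hP ?_⟩
    rw [Sylow.card_eq_multiplicity, hfac, pow_one, Nat.card_zpowers, hx]
  obtain ⟨P, hPeq⟩ := hsyl z h.ord
  obtain ⟨Q, hQeq⟩ := hsyl _ hoc
  have hnorm : (Subgroup.zpowers (c ^ (orderOf c / p))).Normal := by
    refine ⟨fun x hx g => ?_⟩
    have hxc : x ∈ Subgroup.center G := (Subgroup.zpowers_le.mpr hc'c) hx
    rw [Subgroup.mem_center_iff.mp hxc g, mul_inv_cancel_right]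
    exact hx
  have hQn : (Q : Subgroup G).Normal := by rw [← hQeq]; exact hnorm
  obtain ⟨g, hg⟩ := MulAction.exists_smul_eq G Q P
  rw [Sylow.smul_eq_of_normal] at hg
  apply h.nn
  rw [hPeq, ← hg]
  exact hQn

end Cfsg.Agent.Lib.Helper62.PT
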