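import Cfsg.Agent.Lib.Helper22.PTDefs
import Cfsg.Agent.Lib.Helper62.PTMomAux

/-!
# S4705 project (helper22, "PT"): piece MOM2 (helper62)
-/

set_option autoImplicit false

namespace Cfsg.Agent.Lib.Helper62.PT

open Cfsg Cfsg.Agent.Lib.Helper22.BFD Cfsg.Agent.Lib.Helper22.PT
open scoped ComplexConjugate

universe u

variable {G : Type u} [Group G] [Fintype G]

/-- PIECE MOM2 -/
theorem mom2 (p : ℕ) [Fact p.Prime] (w : ℂ) (hw : IsPrimitiveRoot w p) (z : G) (ζ : G → ℂ)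
    (h : Hyp G p z ζ) (hl : Loc G p z ζ) (hsing : Sing p z) (u : ZMod p) (hu : u ≠ 0)
    (hex : ∀ t : ZMod p, t ≠ 0 → ζ (z ^ t.val) = -ev p w u t) :
    ∑ g : G, (if p ∣ orderOf g then 0 else ζ g * conj (ζ g)) =
      2 * (Nat.card G : ℂ) / p := by
  have hp0 : (p : ℂ) ≠ 0 := by exact_mod_cast (Fact.out : p.Prime).ne_zero
  have htot : ∑ g : G, ζ g * conj (ζ g) = (Nat.card G : ℂ) := mom_total ζ h.irr
  have hF : ∀ g x : G, ζ (x * g * x⁻¹) * conj (ζ (x * g * x⁻¹)) = ζ g * conj (ζ g) := by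
    intro g x
    rw [Helper83.irr_classFunction h.irr g x]
  have hf : ∀ t : ZMod p, t ≠ 0 → ∀ c ∈ Subgroup.center G,
      ζ (z ^ t.val * c) * conj (ζ (z ^ t.val * c)) = ev p w u t ^ 2 := by
    intro t ht c hc
    obtain ⟨l, hl1, hl2⟩ := mom_cen ζ h.irr c hc
    rw [Subgroup.mem_center_iff.mp hc (z ^ t.val), hl2, hex t ht, map_mul, map_neg,
      mom_ev_conj p w hw]
    linear_combination (ev p w u t ^ 2) * hl1
  refine (mom_sing_eval p z hsing (fun g => ζ g * conj (ζ g)) hF (fun t => ev p w u t ^ 2) hf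
    _ _ htot _ (mom_sum_ev_sq p h.p5 w hw u hu)).trans ?_
  field_simp
  ring

end Cfsg.Agent.Lib.Helper62.PT
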