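import Cfsg.Agent.Lib.Helper22.PTDefs
import Cfsg.Agent.Lib.Helper62.PTMomAux

/-!
# S4705 project (helper22, "PT"): piece MOM3 (helper62)
-/

set_option autoImplicit false

namespace Cfsg.Agent.Lib.Helper62.PT

open Cfsg Cfsg.Agent.Lib.Helper22.BFD Cfsg.Agent.Lib.Helper22.PT
open scoped ComplexConjugate

universe u

variable {G : Type u} [Group G] [Fintype G]

/-- PIECE MOM3 -/
theorem mom3 (p : ℕ) [Fact p.Prime] (w : ℂ) (hw : IsPrimitiveRoot w p) (z : G) (ζ : G → ℂ)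
    (h : Hyp G p z ζ) (hl : Loc G p z ζ) (hsing : Sing p z) (u : ZMod p) (hu : u ≠ 0)
    (hex : ∀ t : ZMod p, t ≠ 0 → ζ (z ^ t.val) = -ev p w u t)
    (hodd : Odd (Nat.card (Subgroup.center G))) (s : ℕ) (hs : Sq2 G p s)
    (hsq1 : ∑ g : G, ζ g ^ 2 * conj (ζ (g ^ s)) = (Nat.card G : ℂ)) :
    ∑ g : G, (if p ∣ orderOf g then 0 else ζ g ^ 2 * conj (ζ (g ^ s))) =
      (Nat.card G : ℂ) * ((p : ℂ) - 4) / p := by
  have hp := (Fact.out : p.Prime)
  have hp0 : (p : ℂ) ≠ 0 := by exact_mod_cast hp.ne_zero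
  have hF : ∀ g x : G, ζ (x * g * x⁻¹) ^ 2 * conj (ζ ((x * g * x⁻¹) ^ s)) =
      ζ g ^ 2 * conj (ζ (g ^ s)) := by
    intro g x
    rw [conj_pow, Helper83.irr_classFunction h.irr g x,
      Helper83.irr_classFunction h.irr (g ^ s) x]
  have hf : ∀ t : ZMod p, t ≠ 0 → ∀ c ∈ Subgroup.center G,
      ζ (z ^ t.val * c) ^ 2 * conj (ζ ((z ^ t.val * c) ^ s)) = -(ev p w u t ^ 3) := by
    intro t ht c hc
    obtain ⟨l, hl1, hl2⟩ := mom_cen ζ h.irr c hc
    have hcomm : z ^ t.val * c = c * z ^ t.val := Subgroup.mem_center_iff.mp hc (z ^ t.val)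
    have hzs : (z ^ t.val) ^ s = z ^ t.val := by
      apply hs.fix
      intro q hq hqd
      right
      have h1 : q ∣ p := by
        have h2 := orderOf_pow_dvd (x := z) t.val
        rw [h.ord] at h2
        exact hqd.trans h2
      exact (Nat.prime_dvd_prime_iff_eq hq hp).mp h1
    have hcs : c ^ s = c ^ 2 := by
      apply hs.sq
      · have h1 : orderOf c ∣ Nat.card (Subgroup.center G) := by
          have h2 := orderOf_dvd_natCard (⟨c, hc⟩ : Subgroup.center G)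
          rwa [Subgroup.orderOf_mk] at h2
        exact hodd.of_dvd_nat h1
      · exact mom_zreg p z ζ h c hc
    have hpow : (z ^ t.val * c) ^ s = c * (c * z ^ t.val) := by
      rw [(show Commute (z ^ t.val) c from hcomm).mul_pow, hzs, hcs, pow_two, ← mul_assoc,
        hcomm, mul_assoc, hcomm]
    rw [hpow, hcomm, hl2 (c * z ^ t.val), hl2 (z ^ t.val), hex t ht]
    simp only [map_mul, map_neg]
    rw [mom_ev_conj p w hw]
    linear_combination (-(ev p w u t ^ 3) * (l * conj l + 1)) * hl1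
  refine (mom_sing_eval p z hsing (fun g => ζ g ^ 2 * conj (ζ (g ^ s))) hF
    (fun t => -(ev p w u t ^ 3)) hf _ _ hsq1 _ (mom_sum_ev_cube p h.p5 w hw u hu)).trans ?_
  field_simp
  ring

end Cfsg.Agent.Lib.Helper62.PT
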