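import Cfsg.Agent.Lib.Helper96.PiDefs
import Cfsg.Agent.Lib.Helper96.PiGlueB
import Cfsg.Agent.Lib.Helper96.PiOmega
import Cfsg.Agent.Lib.Helper9.HeUNIPPOW
import Cfsg.Agent.Lib.Helper51.Spinor

/-!
Project PI (S5989, helper96): piece X2REFL (helper62).
-/

set_option autoImplicit false
set_option linter.unusedSectionVars false
set_option linter.unusedVariables false

namespace Cfsg.Agent.Lib.Helper62.Pi

open Module Cfsg.Agent.Lib.Helper96.Sp Cfsg.Agent.Lib.Helper96.BG Cfsg.Agent.Lib.Helper96.Hy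
  Cfsg.Agent.Lib.Helper96.Pi Cfsg.Agent.Lib.Helper47

universe u

open Matrix
open scoped MatrixGroups

variable {F : Type u} [Field F] [Fintype F]

-- PIECE X2REFL
theorem refl_pair {ι : Type} [Fintype ι] [DecidableEq ι] (Q : QuadraticForm F (ι → F))
    (h2 : (2 : F) ≠ 0) (x : Matrix ι ι F) (hxQ : ∀ v, Q (x *ᵥ v) = Q v) (hx2 : x * x = -1)
    (v : ι → F) (hv : Q v ≠ 0) :
    Q (v - x *ᵥ v) = 2 * Q v ∧
    (Cfsg.reflectionMatrix ⇑Q v * Cfsg.reflectionMatrix ⇑Q (v - x *ᵥ v)) *ᵥ v = x *ᵥ v ∧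
    (Cfsg.reflectionMatrix ⇑Q v * Cfsg.reflectionMatrix ⇑Q (v - x *ᵥ v)) *ᵥ (x *ᵥ v) = -v ∧
    ∀ w, QuadraticMap.polar ⇑Q v w = 0 → QuadraticMap.polar ⇑Q (x *ᵥ v) w = 0 →
      (Cfsg.reflectionMatrix ⇑Q v * Cfsg.reflectionMatrix ⇑Q (v - x *ᵥ v)) *ᵥ w = w := by
  have hxx : x *ᵥ (x *ᵥ v) = -v := by
    rw [Matrix.mulVec_mulVec, hx2, Matrix.neg_mulVec, Matrix.one_mulVec]
  have hpol : QuadraticMap.polar ⇑Q v (x *ᵥ v) = 0 := by
    have h1 : Q (v + x *ᵥ v) = Q (x *ᵥ v - v) := by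
      rw [← hxQ (v + x *ᵥ v), Matrix.mulVec_add, hxx, sub_eq_add_neg]
    have h3 : Q (v + x *ᵥ v) = Q v + Q (x *ᵥ v) + QuadraticMap.polar ⇑Q v (x *ᵥ v) :=
      QuadraticMap.map_add Q v (x *ᵥ v)
    have h4 : Q (x *ᵥ v - v) = Q (x *ᵥ v) + Q v - QuadraticMap.polar ⇑Q v (x *ᵥ v) := by
      have h5 := Cfsg.Agent.Lib.Helper51.Q_sub_smul Q (x *ᵥ v) v 1
      rw [one_smul] at h5
      rw [h5]
      ring
    have h6 : 2 * QuadraticMap.polar ⇑Q v (x *ᵥ v) = 0 := by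
      linear_combination h1 - h3 + h4
    exact (mul_eq_zero.mp h6).resolve_left h2
  have hpol' : QuadraticMap.polar ⇑Q (x *ᵥ v) v = 0 := by
    rw [Cfsg.Agent.Lib.Helper51.polar_comm']
    exact hpol
  have hQu : Q (v - x *ᵥ v) = 2 * Q v := by
    have h5 := Cfsg.Agent.Lib.Helper51.Q_sub_smul Q v (x *ᵥ v) 1
    rw [one_smul] at h5
    rw [h5, hpol', hxQ v]
    ring
  have h2v : (2 * Q v) ≠ 0 := mul_ne_zero h2 hv
  have hpuv : QuadraticMap.polar ⇑Q (v - x *ᵥ v) v = 2 * Q v := by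
    rw [Cfsg.Agent.Lib.Helper51.polar_comm', Cfsg.Agent.Lib.Helper51.polar_sub_right',
      Cfsg.Agent.Lib.Helper51.polar_self, hpol, sub_zero]
  have hpuxv : QuadraticMap.polar ⇑Q (v - x *ᵥ v) (x *ᵥ v) = -(2 * Q v) := by
    rw [Cfsg.Agent.Lib.Helper51.polar_comm', Cfsg.Agent.Lib.Helper51.polar_sub_right',
      Cfsg.Agent.Lib.Helper51.polar_self, hpol', hxQ v, zero_sub]
  have hru_v : Cfsg.reflectionMatrix ⇑Q (v - x *ᵥ v) *ᵥ v = x *ᵥ v := by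
    rw [Cfsg.Agent.Lib.Helper51.reflectionMatrix_mulVec, hQu, hpuv, inv_mul_cancel₀ h2v,
      one_smul, sub_sub_cancel]
  have hrv_xv : Cfsg.reflectionMatrix ⇑Q v *ᵥ (x *ᵥ v) = x *ᵥ v := by
    rw [Cfsg.Agent.Lib.Helper51.reflectionMatrix_mulVec, hpol, mul_zero, zero_smul, sub_zero]
  have hru_xv : Cfsg.reflectionMatrix ⇑Q (v - x *ᵥ v) *ᵥ (x *ᵥ v) = v := by
    rw [Cfsg.Agent.Lib.Helper51.reflectionMatrix_mulVec, hQu, hpuxv, mul_neg,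
      inv_mul_cancel₀ h2v, neg_smul, one_smul, sub_neg_eq_add, add_sub_cancel]
  have hrv_v : Cfsg.reflectionMatrix ⇑Q v *ᵥ v = -v := by
    rw [Cfsg.Agent.Lib.Helper51.reflectionMatrix_mulVec, Cfsg.Agent.Lib.Helper51.polar_self]
    have h7 : (Q v)⁻¹ * (2 * Q v) = 2 := by
      field_simp
    rw [h7]
    funext i
    simp only [Pi.sub_apply, Pi.smul_apply, smul_eq_mul, Pi.neg_apply]
    ring
  refine ⟨hQu, ?_, ?_, ?_⟩
  · rw [← Matrix.mulVec_mulVec, hru_v, hrv_xv]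
  · rw [← Matrix.mulVec_mulVec, hru_xv, hrv_v]
  · intro w hw1 hw2
    have hpuw : QuadraticMap.polar ⇑Q (v - x *ᵥ v) w = 0 := by
      rw [Cfsg.Agent.Lib.Helper51.polar_comm', Cfsg.Agent.Lib.Helper51.polar_sub_right',
        Cfsg.Agent.Lib.Helper51.polar_comm' Q w v, Cfsg.Agent.Lib.Helper51.polar_comm' Q w (x *ᵥ v),
        hw1, hw2, sub_zero]
    rw [← Matrix.mulVec_mulVec, Cfsg.Agent.Lib.Helper51.reflectionMatrix_mulVec Q (v - x *ᵥ v) w,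
      hpuw, mul_zero, zero_smul, sub_zero, Cfsg.Agent.Lib.Helper51.reflectionMatrix_mulVec, hw1,
      mul_zero, zero_smul, sub_zero]

end Cfsg.Agent.Lib.Helper62.Pi
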