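import Cfsg.Agent.Lib.Helper96.PiDefs
import Cfsg.Agent.Lib.Helper96.PiGlueB
import Cfsg.Agent.Lib.Helper96.PiOmega
import Cfsg.Agent.Lib.Helper9.HeUNIPPOW

/-!
Project PI (S5989, helper96): piece X2TYPE (helper62).
-/

set_option autoImplicit false
set_option linter.unusedSectionVars false
set_option linter.unusedVariables false

namespace Cfsg.Agent.Lib.Helper62.Pi

open Module Cfsg.Agent.Lib.Helper96.Sp Cfsg.Agent.Lib.Helper96.BG Cfsg.Agent.Lib.Helper96.Hy
  Cfsg.Agent.Lib.Helper96.Pi Cfsg.Agent.Lib.Helper47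

universe u

variable {F : Type u} [Field F] [Fintype F] {V : Type u} [AddCommGroup V] [Module F V]
  [FiniteDimensional F V] {B : LinearMap.BilinForm F V}

-- PIECE X2TYPE
theorem typ_of_sq_neg (hS : B.IsSymm) (h2 : (2 : F) ≠ 0) (hN : ND B ⊤) (hF : Facts B)
    (x : Module.End F V) (hx : Isom B x) (hx2 : x * x = -1)
    (hplane : ∀ v : V, B v v ≠ 0 →
      ND B (Submodule.span F {v, x v}) ∧ finrank F (Submodule.span F {v, x v}) = 2 ∧
      (Submodule.span F {v, x v}).map x ≤ Submodule.span F {v, x v} ∧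
      Typ B (Submodule.span F {v, x v}) (epsNeg F))
    (hstep : ∀ W : Submodule F V, ND B W → W.map x ≤ W → ∀ v : V, v ∈ W → B v v ≠ 0 →
      ND B (W ⊓ B.orthogonal (Submodule.span F {v, x v})) ∧
      (W ⊓ B.orthogonal (Submodule.span F {v, x v})).map x ≤
        W ⊓ B.orthogonal (Submodule.span F {v, x v}) ∧
      finrank F ↥(W ⊓ B.orthogonal (Submodule.span F {v, x v})) + 2 = finrank F W ∧
      Submodule.span F {v, x v} ⊔ (W ⊓ B.orthogonal (Submodule.span F {v, x v})) = W ∧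
      Orth B (Submodule.span F {v, x v}) (W ⊓ B.orthogonal (Submodule.span F {v, x v})))
    (e : ℕ) (W : Submodule F V) (hW : ND B W) (hWx : W.map x ≤ W)
    (hfin : finrank F W = 2 * e + 2) :
    Typ B W ((epsNeg F) ^ (e + 1)) := by
  induction e generalizing W with
  | zero =>
    obtain ⟨v, hvW, hv1⟩ := hF.rep W hW (by omega) 1 one_ne_zero
    have hv : B v v ≠ 0 := by rw [hv1]; exact one_ne_zero
    obtain ⟨hPnd, hPfin, hPx, hPtyp⟩ := hplane v hv
    obtain ⟨h1, h3, h4, h5, h6⟩ := hstep W hW hWx v hvW hv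
    have hbot : W ⊓ B.orthogonal (Submodule.span F {v, x v}) = ⊥ := by
      apply Submodule.finrank_eq_zero.mp
      omega
    rw [hbot, sup_bot_eq] at h5
    rw [← h5]
    simpa using hPtyp
  | succ e ih =>
    obtain ⟨v, hvW, hv1⟩ := hF.rep W hW (by omega) 1 one_ne_zero
    have hv : B v v ≠ 0 := by rw [hv1]; exact one_ne_zero
    obtain ⟨hPnd, hPfin, hPx, hPtyp⟩ := hplane v hv
    obtain ⟨h1, h3, h4, h5, h6⟩ := hstep W hW hWx v hvW hv
    have ih' := ih (W ⊓ B.orthogonal (Submodule.span F {v, x v})) h1 h3 (by omega)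
    have h7 := hF.typ_sup _ _ _ _ hPnd h1 h6 hPtyp ih'
    rw [h5] at h7
    rw [pow_succ']
    exact h7

end Cfsg.Agent.Lib.Helper62.Pi
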