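import Mathlib

/-!
# S4501, pieces O1 and O2 (for helper30)

A nonabelian finite simple group has no cyclic Sylow subgroup for the smallest prime divisor
of its order; consequences: its order is not `3 * m` with `gcd(m, 6) = 1`, nor `2 * m` with
`m` odd.
-/

set_option autoImplicit false

namespace Cfsg.Agent.Lib.Helper30.S4501.O1


/-- a nonabelian simple group has no cyclic Sylow subgroup at the smallest prime -/
theorem cyclic_sylow_minFac_false {G : Type*} [Group G] [Finite G] [IsSimpleGroup G]
    (hna : ∃ x y : G, x * y ≠ y * x) (p : ℕ) [Fact p.Prime]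
    (hmin : (Nat.card G).minFac = p) (P : Sylow p G) (hP : IsCyclic (P : Subgroup G)) :
    False := by
  have hcomp := IsCyclic.isComplement' hmin hP
  have hpG : p ∣ Nat.card G := hmin ▸ Nat.minFac_dvd _
  rcases Subgroup.Normal.eq_bot_or_eq_top
    (inferInstance : (MonoidHom.transferSylow P (hP.normalizer_le_centralizer hmin)).ker.Normal)
    with hK | hK
  · rw [hK] at hcomp
    have hPtop : (P : Subgroup G) = ⊤ := Subgroup.isComplement'_bot_left.mp hcomp
    obtain ⟨x, y, hxy⟩ := hna
    obtain ⟨g, hg⟩ := hP.exists_generator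
    have hx : x ∈ (P : Subgroup G) := hPtop ▸ Subgroup.mem_top x
    have hy : y ∈ (P : Subgroup G) := hPtop ▸ Subgroup.mem_top y
    obtain ⟨i, hi⟩ := Subgroup.mem_zpowers_iff.mp (hg ⟨x, hx⟩)
    obtain ⟨j, hj⟩ := Subgroup.mem_zpowers_iff.mp (hg ⟨y, hy⟩)
    have hi' : (g : G) ^ i = x := by
      have := congrArg (Subtype.val) hi
      simpa using this
    have hj' : (g : G) ^ j = y := by
      have := congrArg (Subtype.val) hj
      simpa using this
    apply hxy
    rw [← hi', ← hj', ← zpow_add, ← zpow_add, add_comm]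
  · rw [hK] at hcomp
    have hPbot : (P : Subgroup G) = ⊥ := Subgroup.isComplement'_top_left.mp hcomp
    exact P.ne_bot_of_dvd_card hpG hPbot


/-- O1 -/
theorem odd_three {G : Type*} [Group G] [Finite G] [IsSimpleGroup G]
    (hna : ∃ x y : G, x * y ≠ y * x) (m : ℕ) (hm : Nat.Coprime m 6)
    (h : Nat.card G = 3 * m) : False := by
  haveI : Fact (Nat.Prime 3) := ⟨Nat.prime_three⟩
  have hm2 : ¬ 2 ∣ m := fun h2 => by
    have := Nat.dvd_gcd h2 (by norm_num : 2 ∣ 6)
    rw [Nat.Coprime] at hm
    rw [hm] at this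
    omega
  have hm3 : ¬ 3 ∣ m := fun h3 => by
    have := Nat.dvd_gcd h3 (by norm_num : 3 ∣ 6)
    rw [Nat.Coprime] at hm
    rw [hm] at this
    omega
  have hm0 : m ≠ 0 := by rintro rfl; exact hm3 (dvd_zero 3)
  have hmin : (Nat.card G).minFac = 3 := by
    rw [h]
    have h3 : (3 * m).minFac ≤ 3 := Nat.minFac_le_of_dvd (by norm_num) (dvd_mul_right 3 m)
    have hpr : (3 * m).minFac.Prime := Nat.minFac_prime (by omega)
    have h2 : (3 * m).minFac ≠ 2 := by
      intro h2
      have hd : 2 ∣ 3 * m := h2 ▸ Nat.minFac_dvd (3 * m)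
      omega
    have := hpr.two_le
    omega
  obtain ⟨P⟩ : Nonempty (Sylow 3 G) := inferInstance
  have hPcard : Nat.card (P : Subgroup G) = 3 := by
    rw [Sylow.card_eq_multiplicity, h, Nat.factorization_mul (by norm_num) hm0,
      Finsupp.add_apply, Nat.prime_three.factorization_self,
      Nat.factorization_eq_zero_of_not_dvd hm3, pow_one]
  have hcyc : IsCyclic (P : Subgroup G) := isCyclic_of_prime_card hPcard
  exact cyclic_sylow_minFac_false hna 3 hmin P hcyc

end Cfsg.Agent.Lib.Helper30.S4501.O1
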