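import Mathlib
import Cfsg.Agent.Lib.Helper62.S4501O1

/-!
# S4501, piece O2 (for helper30): a nonabelian simple group does not have order `2 * m`, `m` odd
-/

set_option autoImplicit false

namespace Cfsg.Agent.Lib.Helper30.S4501.O2


/-- O2 -/
theorem twice_odd {G : Type*} [Group G] [Finite G] [IsSimpleGroup G]
    (hna : ∃ x y : G, x * y ≠ y * x) (m : ℕ) (hm : Odd m)
    (h : Nat.card G = 2 * m) : False := by
  haveI : Fact (Nat.Prime 2) := ⟨Nat.prime_two⟩
  have hm2 : ¬ 2 ∣ m := fun h2 => by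
    obtain ⟨k, hk⟩ := hm
    omega
  have hm0 : m ≠ 0 := by rintro rfl; exact hm2 (dvd_zero 2)
  have hmin : (Nat.card G).minFac = 2 := by
    rw [h]
    exact (Nat.minFac_eq_two_iff _).mpr (dvd_mul_right 2 m)
  obtain ⟨P⟩ : Nonempty (Sylow 2 G) := inferInstance
  have hPcard : Nat.card (P : Subgroup G) = 2 := by
    rw [Sylow.card_eq_multiplicity, h, Nat.factorization_mul (by norm_num) hm0,
      Finsupp.add_apply, Nat.prime_two.factorization_self,
      Nat.factorization_eq_zero_of_not_dvd hm2, pow_one]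
  have hcyc : IsCyclic (P : Subgroup G) := isCyclic_of_prime_card hPcard
  exact Cfsg.Agent.Lib.Helper30.S4501.O1.cyclic_sylow_minFac_false hna 2 hmin P hcyc

end Cfsg.Agent.Lib.Helper30.S4501.O2
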